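import Cfsg.Agent.H582.FpfPSU
import Cfsg.Agent.H186.Unitary
import Cfsg.Agent.H183.SemisSU
import Cfsg.Agent.GenPsu.Psu
import Cfsg.Agent.ClassicalGeometry.HermWitt
import Cfsg.Agent.H520.CcpCfg

/-!
# S4114: `PSU_n(2)`, `n` odd (helper594), part A

* the field with four elements;
* `eq_three` : an odd prime divisor of `orderOf α` is 3.
-/

set_option autoImplicit false
set_option linter.unusedSectionVars false

namespace Cfsg.Agent.H594.UTwo

open Matrix Cfsg Cfsg.Agent.H520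
open Cfsg.Agent.LieClassical.HermBasic Cfsg.Agent.LieClassical.HermSiegel
open Cfsg.Agent.ClassicalGeometry.PSUAutCount (gm semiConj toAut gm_mul gm_one gm_mul_inv gm_inv_mul eq_of_toAut_eq
  sc gm_sc_mul toAut_sc_mul herm_gm act_semiConj herm_semi gm_mulVec_inv gm_inv_mulVec gm_inj)
open Cfsg.Agent.ClassicalGeometry.UnitAutBasic (hL hL_apply pr pr_surjective exists_scalar_of_mem_center
  mem_center_of_scalar exists_scalar_of_pr_eq pr_eq_of_scalar)
open Cfsg.Agent.Schreier.PSU (f₁ f₂ toAut_eq mapGU conj_field toAut_pr' gm_mapGU f₁_eq_conj)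
open Cfsg.Agent.CpAutU.Desc (toAut_mul exists_conj exists_scalar)
open Cfsg.Agent.H582.FpfPSU (sm sm_smul sm_surj act_semi commute_semi pow_semi pth gm_pow)

section Four

variable {F : Type*} [Field F] [Fintype F]

theorem pow_four (hF : Fintype.card F = 2 ^ 2) (c : F) : c ^ 4 = c := by
  have h := FiniteField.pow_card c
  rwa [hF] at h

theorem cube_one (hF : Fintype.card F = 2 ^ 2) {c : F} (hc : c ≠ 0) : c ^ 3 = 1 := by
  have h := pow_four hF c
  have h1 : c * c ^ 3 = c * 1 := by rw [← pow_succ', h, mul_one]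
  exact mul_left_cancel₀ hc h1

theorem norm_one (hF : Fintype.card F = 2 ^ 2) {c : F} (hc : c ≠ 0) : c * c ^ 2 = 1 := by
  rw [← pow_succ', cube_one hF hc]

theorem char_two (hF : Fintype.card F = 2 ^ 2) : CharP F 2 := by
  obtain ⟨p, hp⟩ := CharP.exists F
  obtain ⟨k, hpp, hk⟩ := FiniteField.card F p
  rw [hF] at hk
  have h1 : p ∣ 2 ^ 2 := by rw [hk]; exact dvd_pow_self p k.ne_zero
  have h2 := (Nat.prime_dvd_prime_iff_eq hpp Nat.prime_two).1 (hpp.dvd_of_dvd_pow h1)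
  rwa [h2] at hp

theorem exists_w (hF : Fintype.card F = 2 ^ 2) : ∃ w : F, w ≠ 0 ∧ w ≠ 1 := by
  classical
  by_contra h
  push Not at h
  have h1 : (Finset.univ : Finset F) ⊆ {0, 1} := by
    intro x _
    by_cases hx : x = 0
    · simp [hx]
    · simp [h x hx]
  have h2 := Finset.card_le_card h1
  rw [Finset.card_univ, hF] at h2
  have h3 : ({0, 1} : Finset F).card ≤ 2 := Finset.card_le_two
  omega

theorem w_eq (hF : Fintype.card F = 2 ^ 2) {w : F} (h0 : w ≠ 0) (h1 : w ≠ 1) : w ^ 2 + w + 1 = 0 := by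
  have h2 := cube_one hF h0
  have h3 : (w - 1) * (w ^ 2 + w + 1) = 0 := by linear_combination h2
  rcases mul_eq_zero.1 h3 with h4 | h4
  · exact absurd (sub_eq_zero.1 h4) h1
  · exact h4

theorem elems (hF : Fintype.card F = 2 ^ 2) {w : F} (h0 : w ≠ 0) (h1 : w ≠ 1) (x : F) :
    x = 0 ∨ x = 1 ∨ x = w ∨ x = w ^ 2 := by
  by_cases hx : x = 0
  · exact Or.inl hx
  · have h2 := cube_one hF hx
    have h3 := w_eq hF h0 h1
    have h4 := cube_one hF h0
    have h5 : (x - 1) * ((x - w) * (x - w ^ 2)) = 0 := by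
      linear_combination h2 - h4 - (x ^ 2 - w * x) * h3
    rcases mul_eq_zero.1 h5 with h6 | h6
    · exact Or.inr (Or.inl (sub_eq_zero.1 h6))
    · rcases mul_eq_zero.1 h6 with h7 | h7
      · exact Or.inr (Or.inr (Or.inl (sub_eq_zero.1 h7)))
      · exact Or.inr (Or.inr (Or.inr (sub_eq_zero.1 h7)))

theorem ringAut (hF : Fintype.card F = 2 ^ 2) (ρ : F ≃+* F) : ρ = 1 ∨ ∀ x, ρ x = x ^ 2 := by
  obtain ⟨w, h0, h1⟩ := exists_w hF
  have h3 := w_eq hF h0 h1
  have h4 := cube_one hF h0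
  have hρ0 : ρ w ≠ 0 := fun h => h0 (ρ.map_eq_zero_iff.1 h)
  have hρ1 : ρ w ≠ 1 := fun h => h1 (ρ.map_eq_one_iff.1 h)
  rcases elems hF h0 h1 (ρ w) with h | h | h | h
  · exact absurd h hρ0
  · exact absurd h hρ1
  · left
    ext x
    show ρ x = x
    rcases elems hF h0 h1 x with rfl | rfl | rfl | rfl
    · exact map_zero ρ
    · exact map_one ρ
    · exact h
    · rw [map_pow, h]
  · right
    intro x
    rcases elems hF h0 h1 x with rfl | rfl | rfl | rfl
    · rw [map_zero]; ring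
    · rw [map_one]; ring
    · exact h
    · rw [map_pow, h]

theorem ringAut_sq (hF : Fintype.card F = 2 ^ 2) (ρ : F ≃+* F) : ρ ^ 2 = 1 := by
  rcases ringAut hF ρ with h | h
  · rw [h, one_pow]
  · ext x
    show ρ (ρ x) = x
    rw [h, h, ← pow_mul]
    exact pow_four hF x

theorem ringAut_odd (hF : Fintype.card F = 2 ^ 2) {ρ : F ≃+* F} {p : ℕ} (hp : Odd p) (h : ρ ^ p = 1) : ρ = 1 := by
  obtain ⟨k, rfl⟩ := hp
  rw [pow_succ, pow_mul, ringAut_sq hF, one_pow, one_mul] at h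
  exact h

end Four

section Prime

variable {F : Type*} [Field F] [Fintype F] {n : ℕ}

/-- the scalar of a power of a linear automorphism -/
theorem pow_eq_smul (hF : Fintype.card F = 2 ^ 2) (hn : 3 ≤ n) {B : GU n F 2} {k : ℕ}
    (h : toAut B 1 ^ k = 1) : ∃ l : F, l * l ^ 2 = 1 ∧ gm B ^ k = l • (1 : Matrix (Fin n) (Fin n) F) := by
  obtain ⟨-, l, hlq, hl⟩ := exists_scalar hF hn h
  refine ⟨l, hlq, ?_⟩
  have h1 : ∀ k : ℕ, ∀ v, (Cfsg.Agent.CpAut.Psl.perm (B : GL (Fin n) F) 1 ^ k) v = gm B ^ k *ᵥ v := by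
    intro k
    induction k with
    | zero => intro v; rw [pow_zero, pow_zero, one_mulVec]; rfl
    | succ k ih =>
      intro v
      rw [pow_succ, Equiv.Perm.mul_apply, ih, pow_succ, ← mulVec_mulVec]
      rfl
  apply Matrix.ext_of_mulVec_single
  intro i
  rw [← h1, hl, Matrix.smul_mulVec, one_mulVec]

theorem mat_inj {g h : SU n F 2} (e : mat g = mat h) : g = h := Subtype.ext (Subtype.ext e)

theorem mat_pow' (s : SU n F 2) (k : ℕ) : mat (s ^ k) = mat s ^ k := by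
  induction k with
  | zero => rfl
  | succ k ih => rw [pow_succ, pow_succ, mat_mul, ih]

/-- An odd prime divisor of the order of `α` is 3. -/
theorem eq_three (hF : Fintype.card F = 2 ^ 2) (hn : 4 ≤ n) {α : MulAut (PSU n F 2)} (h : Cfg α) {p : ℕ}
    (hp : p.Prime) (hd : p ∣ orderOf α) (h2 : p ≠ 2) : p = 3 := by
  have : CharP F 2 := char_two hF
  have : Fact (Nat.Prime 2) := ⟨Nat.prime_two⟩
  by_contra h3
  obtain ⟨y, hy, hyo⟩ := exists_prime_order hp hd
  obtain ⟨B, ρ, rfl⟩ := ClassicalGeometry.PSUAutMain.exists_toAut hF (by omega) (by omega) y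
  have hyp : toAut B ρ ^ p = 1 := by rw [← hyo]; exact pow_orderOf_eq_one _
  obtain ⟨hρ, -⟩ := exists_scalar hF (by omega) hyp
  have hρ1 : ρ = 1 := ringAut_odd hF (hp.odd_of_ne_two h2) hρ
  subst hρ1
  obtain ⟨l, hlq, hl⟩ := pow_eq_smul hF (by omega) hyp
  have hl0 : l ≠ 0 := Cfsg.Agent.H582.FpfPSU.ne_zero_of_norm hlq
  have hp3 : ¬ p ∣ 3 := by
    intro hd3
    exact h3 ((Nat.prime_dvd_prime_iff_eq hp Nat.prime_three).1 hd3)
  obtain ⟨b, hb⟩ := pth (G := Fˣ) hp hp3 (l := Units.mk0 l hl0) (c := 1) (by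
    rw [one_pow]
    apply Units.ext
    rw [Units.val_pow_eq_pow_val, Units.val_mk0, Units.val_one]
    exact cube_one hF hl0)
  have hb' : ((b : Fˣ) : F) ^ p = l := by
    have := congrArg (fun x : Fˣ => (x : F)) hb
    simpa using this
  have hb0 : (b : F) ≠ 0 := Units.ne_zero _
  have hbn : ((b : F)⁻¹) * ((b : F)⁻¹) ^ 2 = 1 := norm_one hF (inv_ne_zero hb0)
  obtain ⟨B', hB'⟩ : ∃ B' : GU n F 2, B' = sc n ⟨_, hbn⟩ * B := ⟨_, rfl⟩
  have hgB' : gm B' = (b : F)⁻¹ • gm B := by rw [hB', gm_sc_mul]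
  have he : toAut B' 1 = toAut B 1 := by rw [hB']; exact toAut_sc_mul ⟨_, hbn⟩ B 1
  have hB'p : gm B' ^ p = 1 := by
    rw [hgB', smul_pow, hl, ← hb', smul_smul, ← mul_pow, inv_mul_cancel₀ hb0, one_pow, one_smul]
  rw [← he] at hy hyo
  have hdet : (gm B').det = 1 := by
    have h4 : (gm B').det ^ p = 1 := by rw [← det_pow, hB'p, det_one]
    have h5 : (gm B').det ≠ 0 := by
      intro h6
      rw [h6, zero_pow hp.ne_zero] at h4
      exact zero_ne_one h4
    have h6 := Nat.dvd_gcd (orderOf_dvd_of_pow_eq_one h4) (orderOf_dvd_of_pow_eq_one (cube_one hF h5))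
    rw [(Nat.Prime.coprime_iff_not_dvd hp).2 hp3, Nat.dvd_one, orderOf_eq_one_iff] at h6
    exact h6
  obtain ⟨s, hs⟩ : ∃ s : SU n F 2, s = mkSU (gm B') hdet (fun u v => herm_gm _ u v) := ⟨_, rfl⟩
  have hms : mat s = gm B' := by rw [hs, mat_mkSU]
  have hconj : toAut B' 1 = MulAut.conj (pr n F 2 s) := f₁_eq_conj B' s hms.symm
  have hsp : s ^ p = 1 := by
    apply mat_inj
    rw [mat_pow', hms, hB'p]
    rfl
  have hos : (orderOf s).Coprime 2 := by
    apply Nat.Coprime.coprime_dvd_left (orderOf_dvd_of_pow_eq_one hsp)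
    exact (Nat.coprime_primes hp Nat.prime_two).2 h2
  have hcj : IsConj s (s ^ 4) := by
    refine Cfsg.Agent.H183.Semis.su_isConj hF 2 s (s ^ 4) hos (Nat.Coprime.coprime_dvd_left (orderOf_pow_dvd 4) hos) ?_
    show (mat s).charpoly = (mat (s ^ 4)).charpoly
    rw [mat_pow']
    have h4 := FiniteField.Matrix.charpoly_pow_card (mat s)
    rw [hF] at h4
    exact h4.symm
  obtain ⟨g, hg⟩ := isConj_iff.1 hcj
  have hg' : pr n F 2 g * pr n F 2 s * (pr n F 2 g)⁻¹ = pr n F 2 s ^ 4 := by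
    rw [← map_mul, ← map_inv, ← map_mul, hg, map_pow]
  have h4 := h.eq_pow (by rw [← hconj]; exact hy) hg'
  have h5 : (pr n F 2 s) ^ 3 = 1 := by
    have h6 : pr n F 2 s ^ 3 * pr n F 2 s = 1 * pr n F 2 s := by rw [← pow_succ, h4, one_mul]
    exact mul_right_cancel h6
  have h6 : (MulAut.conj (pr n F 2 s)) ^ 3 = 1 := by rw [← map_pow, h5, map_one]
  rw [← hconj] at h6
  have h7 := orderOf_dvd_of_pow_eq_one h6
  rw [hyo] at h7
  exact hp3 h7

end Prime

end Cfsg.Agent.H594.UTwo
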