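import Cfsg.Agent.H594.UTwoA
import Cfsg.Agent.H960.Diag

/-!
# S4114: `PSU_n(2)`, `n` odd (helper594), part B

* `exists_two`, `exists_three` : elements of order 2 and 3 in `⟨α⟩`;
* `linear` : `α` is linear.
-/

set_option autoImplicit false
set_option linter.unusedSectionVars false

namespace Cfsg.Agent.H594.UTwo

open Matrix Cfsg Cfsg.Agent.H520
open Cfsg.Agent.LieClassical.HermBasic Cfsg.Agent.LieClassical.HermSiegel
open Cfsg.Agent.ClassicalGeometry.PSUAutCount (gm semiConj toAut gm_mul gm_one gm_mul_inv gm_inv_mul eq_of_toAut_eq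
  sc gm_sc_mul toAut_sc_mul herm_gm act_semiConj herm_semi gm_mulVec_inv gm_inv_mulVec gm_inj)
open Cfsg.Agent.ClassicalGeometry.UnitAutBasic (hL hL_apply pr pr_surjective exists_scalar_of_mem_center
  mem_center_of_scalar exists_scalar_of_pr_eq pr_eq_of_scalar tau tau_mul tau_zero tau_eq_one_iff)
open Cfsg.Agent.Schreier.PSU (f₁ f₂ toAut_eq mapGU conj_field toAut_pr' gm_mapGU f₁_eq_conj)
open Cfsg.Agent.CpAutU.Desc (toAut_mul exists_conj exists_scalar)
open Cfsg.Agent.H582.FpfPSU (sm sm_smul sm_surj act_semi commute_semi pow_semi pth gm_pow)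

variable {F : Type*} [Field F] [Fintype F] {n : ℕ}

theorem two_zero (hF : Fintype.card F = 2 ^ 2) : (2 : F) = 0 := by
  have : CharP F 2 := char_two hF
  exact_mod_cast CharP.cast_eq_zero F 2

/-- diagonal elements of `SU` -/
theorem exists_diag_SU (hF : Fintype.card F = 2 ^ 2) (d : Fin n → F) (hd : ∀ i, d i ≠ 0) (hp : ∏ i, d i = 1) :
    ∃ s : SU n F 2, mat s = Matrix.diagonal d := by
  refine ⟨mkSU (Matrix.diagonal d) (by rw [Matrix.det_diagonal, hp]) ?_, rfl⟩
  intro u v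
  rw [herm_def, herm_def]
  refine Finset.sum_congr rfl fun i _ => ?_
  rw [Matrix.mulVec_diagonal, Matrix.mulVec_diagonal]
  have := norm_one hF (hd i)
  linear_combination (u i * v i ^ 2) * this

theorem two_dvd_card (hF : Fintype.card F = 2 ^ 2) (hn : 3 ≤ n) : 2 ∣ Nat.card (PSU n F 2) := by
  obtain ⟨e, f, H⟩ := ClassicalGeometry.PSUAutBasic.exists_frame (F := F) (q := 2) (n := n) hF (by omega)
  have he0 : e ≠ 0 := by
    intro h0
    have := H.ef
    rw [h0, herm_zero_left] at this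
    exact zero_ne_one this
  have h1 : tau hF e * tau hF e = 1 := by
    have h2 := tau_mul hF H.ee (a := 1) (b := 1) (c := 0) (by linear_combination two_zero hF)
    rwa [one_smul, zero_smul, tau_zero] at h2
  have h2 : tau hF e ≠ 1 := fun h => he0 ((tau_eq_one_iff hF hn H.ee).1 h)
  have : Fact (Nat.Prime 2) := ⟨Nat.prime_two⟩
  have h3 : orderOf (tau hF e) = 2 := orderOf_eq_prime (by rw [pow_two, h1]) h2
  exact (Dvd.intro_left 1 (by rw [one_mul, h3])).trans (orderOf_dvd_natCard (tau hF e))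

theorem three_dvd_card (hF : Fintype.card F = 2 ^ 2) (hn : 3 ≤ n) : 3 ∣ Nat.card (PSU n F 2) := by
  classical
  obtain ⟨w, h0, h1⟩ := exists_w hF
  obtain ⟨m, rfl⟩ : ∃ m, n = m + 3 := ⟨n - 3, by omega⟩
  let d : Fin (m + 3) → F := Fin.cons w (Fin.cons (w ^ 2) (fun _ => 1))
  obtain ⟨s, hs⟩ := exists_diag_SU hF d (by
    intro i
    refine Fin.cases ?_ (fun j => Fin.cases ?_ (fun k => ?_) j) i
    · exact h0
    · exact pow_ne_zero 2 h0
    · exact one_ne_zero) (by
    rw [Fin.prod_univ_succ, Fin.prod_univ_succ]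
    show w * (w ^ 2 * ∏ i : Fin (m + 1), (1 : F)) = 1
    rw [Finset.prod_const_one, mul_one, ← pow_succ', cube_one hF h0])
  have h3 : s ^ 3 = 1 := by
    apply mat_inj
    rw [mat_pow', hs, Matrix.diagonal_pow]
    show _ = (1 : Matrix (Fin (m + 3)) (Fin (m + 3)) F)
    rw [← Matrix.diagonal_one]
    congr 1
    funext i
    show d i ^ 3 = 1
    refine cube_one hF ?_
    refine Fin.cases ?_ (fun j => Fin.cases ?_ (fun k => ?_) j) i
    · exact h0
    · exact pow_ne_zero 2 h0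
    · exact one_ne_zero
  have h4 : pr (m + 3) F 2 s ≠ 1 := by
    intro h4
    obtain ⟨c, hc, hx⟩ := exists_scalar_of_pr_eq hF hn (g := (1 : SU (m + 3) F 2)) (g' := s) (by rw [h4, map_one])
    have h5 := congrFun (hx (Pi.single 0 1)) 0
    have h6 := congrFun (hx (Pi.single 2 1)) 2
    rw [act_def, hs, Matrix.mulVec_diagonal, act_one, Pi.smul_apply, Pi.single_eq_same, mul_one, smul_eq_mul,
      mul_one] at h5
    rw [act_def, hs, Matrix.mulVec_diagonal, act_one, Pi.smul_apply, Pi.single_eq_same, mul_one, smul_eq_mul,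
      mul_one] at h6
    have h7 : d 0 = w := rfl
    have h8 : d 2 = 1 := rfl
    exact h1 (by rw [← h7, h5, ← h6, h8])
  have : Fact (Nat.Prime 3) := ⟨Nat.prime_three⟩
  have h5 : orderOf (pr (m + 3) F 2 s) = 3 := orderOf_eq_prime (by rw [← map_pow, h3, map_one]) h4
  exact (Dvd.intro_left 1 (by rw [one_mul, h5])).trans (orderOf_dvd_natCard (pr (m + 3) F 2 s))

theorem exists_three (hF : Fintype.card F = 2 ^ 2) (hn : 4 ≤ n) {α : MulAut (PSU n F 2)} (h : Cfg α) :
    ∃ y ∈ Subgroup.zpowers α, orderOf y = 3 := by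
  obtain ⟨p, hp, hp2, hd⟩ := h.exists_prime_ne Nat.prime_two (two_dvd_card hF (by omega))
  have h3 := eq_three hF hn h hp hd hp2
  subst h3
  exact exists_prime_order hp hd

theorem exists_two (hF : Fintype.card F = 2 ^ 2) (hn : 4 ≤ n) {α : MulAut (PSU n F 2)} (h : Cfg α) :
    ∃ y ∈ Subgroup.zpowers α, orderOf y = 2 := by
  obtain ⟨p, hp, hp3, hd⟩ := h.exists_prime_ne Nat.prime_three (three_dvd_card hF (by omega))
  by_cases h2 : p = 2
  · subst h2
    exact exists_prime_order hp hd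
  · exact absurd (eq_three hF hn h hp hd h2) hp3

theorem mapGU_mul (ρ : F ≃+* F) (A B : GU n F 2) : mapGU ρ (A * B) = mapGU ρ A * mapGU ρ B := by
  apply gm_inj
  rw [gm_mul, Cfsg.Agent.CpAutU.Desc.gm_mapGU', Cfsg.Agent.CpAutU.Desc.gm_mapGU', Cfsg.Agent.CpAutU.Desc.gm_mapGU',
    gm_mul, Matrix.map_mul]

theorem mapGU_one' (ρ : F ≃+* F) : mapGU ρ (1 : GU n F 2) = 1 := by
  have h := mapGU_mul (n := n) ρ (1 : GU n F 2) 1
  rw [mul_one] at h
  exact (left_eq_mul.1 h)

/-- the linear automorphism of a scalar multiple -/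
theorem f₁_of_smul (hF : Fintype.card F = 2 ^ 2) {A B : GU n F 2} {c : F} (hc : c ≠ 0) (h : gm B = c • gm A) :
    f₁ (n := n) (q := 2) B = f₁ A := by
  have h1 : B = sc n ⟨c, norm_one hF hc⟩ * A := gm_inj (by rw [gm_sc_mul, h])
  rw [h1]
  exact toAut_sc_mul _ A 1

/-- a linear automorphism given by a matrix of determinant 1 -/
theorem exists_conj_of_det {H : GU n F 2} (h : (gm H).det = 1) :
    ∃ s : SU n F 2, mat s = gm H ∧ f₁ (n := n) (q := 2) H = MulAut.conj (pr n F 2 s) :=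
  ⟨mkSU (gm H) h (fun u v => herm_gm _ u v), rfl, f₁_eq_conj H _ rfl⟩

theorem det_gm_ne (A : GU n F 2) : (gm A).det ≠ 0 := by
  intro h
  have h1 := congrArg Matrix.det (gm_mul_inv A)
  rw [det_mul, h, zero_mul, det_one] at h1
  exact zero_ne_one h1

/-- **`α` is linear.** -/
theorem linear (hF : Fintype.card F = 2 ^ 2) (hn : 4 ≤ n) {α : MulAut (PSU n F 2)} (h : Cfg α) :
    ∃ A : GU n F 2, α = f₁ A := by
  classical
  obtain ⟨A, ρ, rfl⟩ := ClassicalGeometry.PSUAutMain.exists_toAut hF (by omega) (by omega) α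
  by_cases hρ : ρ = 1
  · exact ⟨A, by rw [hρ]; rfl⟩
  exfalso
  have hρ2 : ∀ x, ρ x = x ^ 2 := (ringAut hF ρ).resolve_left hρ
  obtain ⟨y, hy, hyo⟩ := exists_three hF hn h
  obtain ⟨B, τ, rfl⟩ := ClassicalGeometry.PSUAutMain.exists_toAut hF (by omega) (by omega) y
  have hyp : toAut B τ ^ 3 = 1 := by rw [← hyo]; exact pow_orderOf_eq_one _
  obtain ⟨hτ, -⟩ := exists_scalar hF (by omega) hyp
  have hτ1 : τ = 1 := ringAut_odd hF (by decide) hτ
  subst hτ1
  obtain ⟨l, hlq, hl⟩ := pow_eq_smul hF (by omega) hyp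
  have hl0 : l ≠ 0 := Cfsg.Agent.H582.FpfPSU.ne_zero_of_norm hlq
  have hcm : toAut A ρ * toAut B 1 = toAut B 1 * toAut A ρ := (Cfg.comm_zpowers (Subgroup.mem_zpowers _) hy).eq
  -- `l = 1`
  obtain ⟨m, hm, h1⟩ := commute_semi hF (by omega) hcm
  have hm0 : m ≠ 0 := Cfsg.Agent.H582.FpfPSU.ne_zero_of_norm hm
  have hl1 : l = 1 := by
    obtain ⟨x, hx⟩ := sm_surj A ρ (fun _ => (1 : F))
    have h2 := pow_semi (p := 3) h1 x
    rw [hl, smul_mulVec, smul_mulVec, one_mulVec, one_mulVec, sm_smul, smul_smul, hx, cube_one hF hm0, one_mul] at h2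
    have h3 := congrFun h2 ⟨0, by omega⟩
    simp only [Pi.smul_apply, smul_eq_mul, mul_one] at h3
    rw [hρ2] at h3
    have h4 : l * l = l * 1 := by rw [mul_one, ← pow_two, ← h3]
    exact mul_left_cancel₀ hl0 h4
  rw [hl1, one_smul] at hl
  -- diagonalisation
  obtain ⟨w, hw0, hw1⟩ := exists_w hF
  have hwp : IsPrimitiveRoot w 3 := by
    have : Fact (Nat.Prime 3) := ⟨Nat.prime_three⟩
    have h2 := IsPrimitiveRoot.orderOf w
    rwa [orderOf_eq_prime (cube_one hF hw0) hw1] at h2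
  have h3F : ((3 : ℕ) : F) ≠ 0 := by
    have h2 : ((3 : ℕ) : F) = 1 + 2 := by norm_num
    rw [h2, two_zero hF, add_zero]
    exact one_ne_zero
  obtain ⟨U, hU, s, hs, hMU⟩ := Cfsg.Agent.H960.exists_diag_U hF hwp (by norm_num) (by norm_num) h3F n (gm B)
    (fun u v => herm_gm B u v) hl
  obtain ⟨g, hg, hgU⟩ := Cfsg.Agent.ClassicalGeometry.HermOrtho.exists_GU_of_isometry hF hU
  obtain ⟨P, hP⟩ : ∃ P : GU n F 2, gm P = U := ⟨⟨g, hg⟩, hgU⟩
  have hs0 : ∀ i, s i ≠ 0 := by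
    intro i h2
    have h3 := hs i
    rw [h2, zero_pow (by norm_num)] at h3
    exact zero_ne_one h3
  have hs3 : ∀ i, s i ^ (2 + 1) = 1 := hs
  let D : GU n F 2 := ClassicalGeometry.GUBasic.guDiag 2 s hs3
  have hgD : gm D = Matrix.diagonal s := rfl
  have hBP : B * P = P * D := gm_inj (by rw [gm_mul, gm_mul, hP, hMU, hgD])
  -- the matrix `E`
  let i0 : Fin n := ⟨0, by omega⟩
  let K : GU n F 2 := A * mapGU ρ P * P⁻¹
  let e : F := (gm K).det⁻¹
  have he0 : e ≠ 0 := inv_ne_zero (det_gm_ne K)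
  let t : Fin n → F := Function.update (fun _ => 1) i0 e
  have ht0 : ∀ i, t i ≠ 0 := by
    intro i
    by_cases hi : i = i0
    · subst hi
      simp only [t, Function.update_self]
      exact he0
    · simp only [t, Function.update_of_ne hi]
      exact one_ne_zero
  let E : GU n F 2 := ClassicalGeometry.GUBasic.guDiag 2 t (fun i => cube_one hF (ht0 i))
  have hgE : gm E = Matrix.diagonal t := rfl
  have hdE : (gm E).det = e := by
    rw [hgE, Matrix.det_diagonal, Finset.prod_update_of_mem (Finset.mem_univ i0)]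
    simp
  have hDE : D * E = E * D := gm_inj (by
    rw [gm_mul, gm_mul, hgD, hgE, Matrix.diagonal_mul_diagonal, Matrix.diagonal_mul_diagonal]
    congr 1
    funext i
    ring)
  let H : GU n F 2 := A * mapGU ρ P * E * P⁻¹
  have hdH : (gm H).det = 1 := by
    have h2 : (gm H).det = (gm K).det * (gm E).det := by
      simp only [H, K, gm_mul, det_mul]
      ring
    rw [h2, hdE]
    exact mul_inv_cancel₀ (det_gm_ne K)
  -- the relation
  have hρD : mapGU ρ D = D * D := by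
    apply gm_inj
    rw [Cfsg.Agent.CpAutU.Desc.gm_mapGU', gm_mul, hgD, Matrix.diagonal_mul_diagonal, Matrix.diagonal_map (map_zero ρ)]
    congr 1
    funext i
    show ρ (s i) = _
    rw [hρ2, pow_two]
  rw [toAut_mul, toAut_mul, mul_one, one_mul, Cfsg.Agent.CpAutU.Desc.mapGU_one] at hcm
  obtain ⟨-, c, hc, h2⟩ := eq_of_toAut_eq hF (by omega) hcm
  have hc0 : c ≠ 0 := Cfsg.Agent.H582.FpfPSU.ne_zero_of_norm hc
  have h3 : B * A = sc n ⟨c, hc⟩ * (A * mapGU ρ B) := gm_inj (by rw [gm_sc_mul, h2])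
  have hsc : ∀ X : GU n F 2, sc n ⟨c, hc⟩ * X = X * sc n ⟨c, hc⟩ := by
    intro X
    apply gm_inj
    rw [gm_sc_mul, gm_mul]
    show _ = gm X * Matrix.diagonal (fun _ => c)
    ext i j
    rw [Matrix.mul_diagonal, Matrix.smul_apply, smul_eq_mul, mul_comm]
  have h4 : mapGU ρ B * mapGU ρ P = mapGU ρ P * (D * D) := by
    rw [← mapGU_mul, hBP, mapGU_mul, hρD]
  have hBB : B = P * D * P⁻¹ := by rw [← hBP, mul_inv_cancel_right]
  have h5 : B * H = H * (sc n ⟨c, hc⟩ * (B * B)) := by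
    calc B * H = (B * A) * mapGU ρ P * E * P⁻¹ := by simp only [H, mul_assoc]
      _ = sc n ⟨c, hc⟩ * A * (mapGU ρ B * mapGU ρ P) * E * P⁻¹ := by rw [h3]; simp only [mul_assoc]
      _ = sc n ⟨c, hc⟩ * A * mapGU ρ P * (D * (D * E)) * P⁻¹ := by rw [h4]; simp only [mul_assoc]
      _ = sc n ⟨c, hc⟩ * A * mapGU ρ P * (E * D * D) * P⁻¹ := by rw [hDE, ← mul_assoc D E D, hDE]
      _ = sc n ⟨c, hc⟩ * (H * (B * B)) := by rw [hBB]; simp only [H]; group
      _ = H * (sc n ⟨c, hc⟩ * (B * B)) := by rw [hsc, mul_assoc, hsc]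
  obtain ⟨g, -, hg⟩ := exists_conj_of_det hdH
  have h6 : (MulAut.conj (pr n F 2 g))⁻¹ * f₁ B * MulAut.conj (pr n F 2 g) = f₁ B ^ 2 := by
    rw [← hg, ← map_inv, ← map_mul, ← map_mul, ← map_pow]
    have h7 : H⁻¹ * B * H = sc n ⟨c, hc⟩ * (B * B) := by rw [mul_assoc, h5, inv_mul_cancel_left]
    rw [h7]
    apply f₁_of_smul hF hc0
    rw [gm_sc_mul, pow_two]
  have h7 : MulAut.conj (pr n F 2 g)⁻¹ * f₁ B * (MulAut.conj (pr n F 2 g)⁻¹)⁻¹ = f₁ B ^ (2 : ℤ) := by
    rw [map_inv, inv_inv, h6]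
    rfl
  have h8 := h.ccp.eq_zpow_aut h.center_bot hy h7
  have h9 : f₁ (n := n) (q := 2) B = 1 := by
    have h10 : f₁ (n := n) (q := 2) B * f₁ B = f₁ B * 1 := by
      rw [mul_one, ← pow_two]
      exact h8
    exact mul_left_cancel h10
  have h10 : orderOf (f₁ (n := n) (q := 2) B) = 3 := hyo
  rw [h9, orderOf_one] at h10
  omega

end Cfsg.Agent.H594.UTwo
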