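import Cfsg.Agent.H594.UTwoB
import Cfsg.Agent.H77.Witt
import Cfsg.Agent.H77.Geom

/-!
# S4114: `PSU_n(2)`, `n` odd (helper594), part C

* `exists_invol` : the involution of `⟨α⟩`;
* `uniq` : uniqueness of the involution among its conjugates commuting with `α`;
* `eq_one_of_cube` : the elements of order 3 of `⟨α⟩` lift to elements of order 3.
-/

set_option autoImplicit false
set_option linter.unusedSectionVars false

namespace Cfsg.Agent.H594.UTwo

open Matrix Cfsg Cfsg.Agent.H520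
open Cfsg.Agent.LieClassical.HermBasic Cfsg.Agent.LieClassical.HermSiegel
open Cfsg.Agent.ClassicalGeometry.PSUAutCount (gm semiConj toAut gm_mul gm_one gm_mul_inv gm_inv_mul eq_of_toAut_eq
  sc gm_sc_mul toAut_sc_mul herm_gm act_semiConj herm_semi gm_mulVec_inv gm_inv_mulVec gm_inj)
open Cfsg.Agent.ClassicalGeometry.UnitAutBasic (hL hL_apply pr pr_surjective exists_scalar_of_mem_center
  mem_center_of_scalar exists_scalar_of_pr_eq pr_eq_of_scalar tau tau_mul tau_zero tau_eq_one_iff)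
open Cfsg.Agent.Schreier.PSU (f₁ f₂ toAut_eq mapGU conj_field toAut_pr' gm_mapGU f₁_eq_conj)
open Cfsg.Agent.CpAutU.Desc (toAut_mul exists_conj exists_scalar)
open Cfsg.Agent.H582.FpfPSU (sm sm_smul sm_surj act_semi commute_semi pow_semi pth gm_pow)

variable {F : Type*} [Field F] [Fintype F] {n : ℕ}

theorem exists_pow_of_mem {G : Type*} [Group G] [Finite G] {a b : G} (h : b ∈ Subgroup.zpowers a) :
    ∃ k : ℕ, b = a ^ k := by
  obtain ⟨k, hk⟩ := (isOfFinOrder_of_finite a).mem_powers_iff_mem_zpowers.2 h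
  exact ⟨k, hk.symm⟩

theorem f₁_eq_iff (hF : Fintype.card F = 2 ^ 2) (hn : 3 ≤ n) {A B : GU n F 2}
    (h : f₁ (n := n) (q := 2) A = f₁ B) : ∃ c : F, c ≠ 0 ∧ gm B = c • gm A := by
  obtain ⟨-, c, hc, h1⟩ := eq_of_toAut_eq hF hn h
  exact ⟨c, Cfsg.Agent.H582.FpfPSU.ne_zero_of_norm hc, h1⟩

/-- **The involution of `⟨α⟩`.** -/
theorem exists_invol (hF : Fintype.card F = 2 ^ 2) (hn : 4 ≤ n) {A : GU n F 2} (h : Cfg (f₁ A)) :
    ∃ Z : GU n F 2, f₁ Z ∈ Subgroup.zpowers (f₁ A) ∧ gm Z ≠ 1 ∧ gm Z * gm Z = 1 ∧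
      (∃ (k : ℕ) (c : F), c ≠ 0 ∧ gm Z = c • gm A ^ k) := by
  have : CharP F 2 := char_two hF
  obtain ⟨z, hz, hzo⟩ := exists_two hF hn h
  obtain ⟨k, rfl⟩ := exists_pow_of_mem hz
  have h1 : toAut (A ^ k) 1 ^ 2 = 1 := by
    have h2 : f₁ (n := n) (q := 2) A ^ k = toAut (A ^ k) 1 := (map_pow f₁ A k).symm
    have h3 := pow_orderOf_eq_one (f₁ (n := n) (q := 2) A ^ k)
    rw [hzo] at h3
    rw [← h2, h3]
  obtain ⟨l, hlq, hl⟩ := pow_eq_smul hF (by omega) h1
  have hl0 : l ≠ 0 := Cfsg.Agent.H582.FpfPSU.ne_zero_of_norm hlq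
  have hZ : gm (sc n ⟨l, hlq⟩ * A ^ k) = l • gm A ^ k := by rw [gm_sc_mul, gm_pow]
  refine ⟨sc n ⟨l, hlq⟩ * A ^ k, ?_, ?_, ?_, k, l, hl0, hZ⟩
  · have h2 : f₁ (n := n) (q := 2) (sc n ⟨l, hlq⟩ * A ^ k) = f₁ A ^ k := by
      rw [← map_pow]
      exact toAut_sc_mul ⟨l, hlq⟩ (A ^ k) 1
    rw [h2]
    exact hz
  · intro h2
    have h3 : f₁ (n := n) (q := 2) (sc n ⟨l, hlq⟩ * A ^ k) = f₁ A ^ k := by
      rw [← map_pow]
      exact toAut_sc_mul ⟨l, hlq⟩ (A ^ k) 1
    have h4 : sc n ⟨l, hlq⟩ * A ^ k = 1 := gm_inj (by rw [h2, gm_one])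
    rw [h4, map_one] at h3
    rw [← h3, orderOf_one] at hzo
    omega
  · rw [gm_pow] at hl
    rw [hZ, Matrix.smul_mul, Matrix.mul_smul, smul_smul, ← pow_two, ← pow_two, hl, smul_smul]
    have h2 : l ^ 2 * l = 1 := by rw [mul_comm]; exact hlq
    rw [h2, one_smul]

/-- an element of `SU` as an element of `GU` -/
theorem exists_gu (g : SU n F 2) : ∃ G : GU n F 2, gm G = mat g ∧
    f₁ (n := n) (q := 2) G = MulAut.conj (pr n F 2 g) := by
  let G : GU n F 2 := ⟨((g : Matrix.SpecialLinearGroup (Fin n) F) : GL (Fin n) F), g.2⟩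
  have hG : gm G = mat g := rfl
  exact ⟨G, hG, f₁_eq_conj G g hG⟩

/-- **Uniqueness.** -/
theorem uniq {A : GU n F 2} (h : Cfg (f₁ A)) {Z Z' : GU n F 2}
    (hZ : f₁ Z ∈ Subgroup.zpowers (f₁ A)) {g : SU n F 2} (hg : mat g * gm Z = gm Z' * mat g)
    (hc : gm Z' * gm A = gm A * gm Z') : f₁ (n := n) (q := 2) Z' = f₁ Z := by
  obtain ⟨G, hG, hGf⟩ := exists_gu g
  have h1 : G * Z = Z' * G := gm_inj (by rw [gm_mul, gm_mul, hG, hg])
  have h2 : Z' * A = A * Z' := gm_inj hc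
  have h3 : MulAut.conj (pr n F 2 g) * f₁ Z * (MulAut.conj (pr n F 2 g))⁻¹ = f₁ Z' := by
    rw [← hGf, ← map_mul, ← map_inv, ← map_mul, h1, mul_inv_cancel_right]
  have h4 := h.iso hZ (g := pr n F 2 g) (by
    rw [h3]
    show f₁ Z' * f₁ A = f₁ A * f₁ Z'
    rw [← map_mul, ← map_mul, h2])
  rw [← h3, h4]

theorem add_self (hF : Fintype.card F = 2 ^ 2) (X : Matrix (Fin n) (Fin n) F) : X + X = 0 := by
  rw [← two_smul F X, two_zero hF, zero_smul]

/-- `Λ = B + B⁻¹` satisfies `Λ³ = Λ + 1` if `B³ = l ≠ 1`. -/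
theorem lam_cube (hF : Fintype.card F = 2 ^ 2) {B B' : Matrix (Fin n) (Fin n) F} (h1 : B * B' = 1) (h2 : B' * B = 1)
    {l : F} (hl0 : l ≠ 0) (hl1 : l ≠ 1) (h3 : B ^ 3 = l • (1 : Matrix (Fin n) (Fin n) F)) :
    (B + B') * (B + B') * (B + B') = (B + B') + 1 := by
  have hl := w_eq hF hl0 hl1
  have hl3 := cube_one hF hl0
  have h4 : B * B * B = l • (1 : Matrix (Fin n) (Fin n) F) := by rw [← h3, pow_succ, pow_two]
  have h5 : B' * B' * B' = l ^ 2 • (1 : Matrix (Fin n) (Fin n) F) := by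
    have h6 : (B * B * B) * (B' * B' * B') = 1 := by
      calc (B * B * B) * (B' * B' * B') = B * (B * (B * B') * B') * B' := by simp only [mul_assoc]
        _ = 1 := by rw [h1, mul_one, h1, mul_one, h1]
    rw [h4, smul_mul_assoc, one_mul] at h6
    rw [← h6, smul_smul, ← pow_succ, hl3, one_smul]
  have h6 : (B + B') * (B + B') = B * B + B' * B' := by
    calc (B + B') * (B + B') = B * B + B' * B' + (B * B' + B' * B) := by noncomm_ring
      _ = B * B + B' * B' := by rw [h1, h2, add_self hF, add_zero]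
  rw [h6]
  calc (B * B + B' * B') * (B + B') = B * B * B + B * (B * B') + B' * (B' * B) + B' * B' * B' := by noncomm_ring
    _ = (B + B') + (l • (1 : Matrix (Fin n) (Fin n) F) + l ^ 2 • (1 : Matrix (Fin n) (Fin n) F)) := by
      rw [h1, h2, h4, h5, mul_one, mul_one]; abel
    _ = (B + B') + 1 := by
      rw [← add_smul]
      have h7 : l + l ^ 2 = 1 := by linear_combination hl - two_zero hF
      rw [h7, one_smul]

/-- **Elements of order 3 of `⟨α⟩` have lifts of order 3.** -/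
theorem eq_one_of_cube (hF : Fintype.card F = 2 ^ 2) (hn : 4 ≤ n) (hodd : Odd n) {A : GU n F 2}
    (h : Cfg (f₁ A)) {j : ℕ} {l : F} (hl0 : l ≠ 0) (hl : gm (A ^ j) ^ 3 = l • (1 : Matrix (Fin n) (Fin n) F)) :
    l = 1 := by
  classical
  by_contra hl1
  obtain ⟨Z, hZ, hZ1, hZZ, k, c, hc0, hZk⟩ := exists_invol hF hn h
  obtain ⟨B, hB⟩ : ∃ B : GU n F 2, B = A ^ j := ⟨_, rfl⟩
  rw [← hB] at hl
  -- commuting
  have cB : gm B * gm A = gm A * gm B := by rw [← gm_mul, ← gm_mul, hB, ← pow_succ, ← pow_succ']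
  have cB' : gm B⁻¹ * gm A = gm A * gm B⁻¹ := by
    rw [← gm_mul, ← gm_mul]
    congr 1
    have : Commute B A := gm_inj cB
    exact this.inv_left.eq
  obtain ⟨L, hL⟩ : ∃ L : Matrix (Fin n) (Fin n) F, L = gm B + gm B⁻¹ := ⟨_, rfl⟩
  have cL : L * gm A = gm A * L := by rw [hL, add_mul, mul_add, cB, cB']
  have cLZ : L * gm Z = gm Z * L := by
    rw [hZk, Matrix.mul_smul, Matrix.smul_mul]
    congr 1
    have : Commute L (gm A) := cL
    exact (this.pow_right k).eq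
  have cAZ : gm Z * gm A = gm A * gm Z := by
    rw [hZk, Matrix.mul_smul, Matrix.smul_mul]
    congr 1
    rw [← pow_succ, ← pow_succ']
  have hL3 : L * L * L = L + 1 := by
    rw [hL]
    exact lam_cube hF (gm_mul_inv B) (gm_inv_mul B) hl0 hl1 hl
  obtain ⟨N, hN⟩ : ∃ N : Matrix (Fin n) (Fin n) F, N = gm Z + 1 := ⟨_, rfl⟩
  have hZN : gm Z = 1 + N := by rw [hN, add_comm (gm Z) 1, ← add_assoc, add_self hF, zero_add]
  have hN0 : N ≠ 0 := by
    intro h0
    apply hZ1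
    rw [hZN, h0, add_zero]
  have hNN : N * N = 0 := by
    rw [hN, add_mul, mul_add, mul_one, one_mul, hZZ, add_comm 1 (gm Z), add_self hF]
  have cLN : L * N = N * L := by rw [hN, mul_add, add_mul, mul_one, one_mul, cLZ]
  have cAN : N * gm A = gm A * N := by rw [hN, add_mul, mul_add, mul_one, one_mul, cAZ]
  -- adjoints
  have aZ : ∀ x y, hermForm n F 2 (gm Z *ᵥ x) y = hermForm n F 2 x (gm Z *ᵥ y) := by
    intro x y
    have h1 : gm Z *ᵥ (gm Z *ᵥ y) = y := by rw [mulVec_mulVec, hZZ, one_mulVec]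
    rw [← herm_gm Z x (gm Z *ᵥ y), h1]
  have aN : ∀ x y, hermForm n F 2 (N *ᵥ x) y = hermForm n F 2 x (N *ᵥ y) := by
    intro x y
    rw [hN, add_mulVec, add_mulVec, one_mulVec, one_mulVec, herm_add_left, herm_add_right hF, aZ]
  have aL : ∀ x y, hermForm n F 2 (L *ᵥ x) y = hermForm n F 2 x (L *ᵥ y) := by
    intro x y
    rw [hL, add_mulVec, add_mulVec, herm_add_left, herm_add_right hF]
    rw [← herm_gm B x (gm B⁻¹ *ᵥ y), gm_mulVec_inv, ← herm_gm B⁻¹ x (gm B *ᵥ y), gm_inv_mulVec, add_comm]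
  have hNN0 : ∀ x y, hermForm n F 2 (N *ᵥ x) (N *ᵥ y) = 0 := by
    intro x y
    rw [aN, mulVec_mulVec, hNN, zero_mulVec, herm_zero_right hF]
  -- the basis of the image
  let U : Submodule F (Fin n → F) := LinearMap.range (Matrix.mulVecLin N)
  let bs := Module.finBasis F U
  let a : Fin (Module.finrank F U) → (Fin n → F) := fun i => (bs i : Fin n → F)
  let b : Fin (Module.finrank F U) → (Fin n → F) := fun i => L *ᵥ a i
  have haN : ∀ i, ∃ x, a i = N *ᵥ x := by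
    intro i
    obtain ⟨x, hx⟩ := (bs i).2
    exact ⟨x, hx.symm⟩
  have ha : LinearIndependent F a := by
    have h1 := bs.linearIndependent
    exact h1.map' U.subtype (Submodule.ker_subtype U)
  have hLinj : Function.Injective (fun x : Fin n → F => L *ᵥ x) := by
    intro x y hxy
    have h1 : L *ᵥ x = L *ᵥ y := hxy
    have h2 : ∀ z : Fin n → F, (L * L + 1) *ᵥ (L *ᵥ z) = z := by
      intro z
      rw [mulVec_mulVec, add_mul, one_mul, hL3]
      have : L + 1 + L = 1 := by rw [add_right_comm, add_self hF, zero_add]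
      rw [this, one_mulVec]
    rw [← h2 x, h1, h2]
  have hb : LinearIndependent F b := by
    have h1 := ha.map' (Matrix.mulVecLin L) (LinearMap.ker_eq_bot.2 hLinj)
    exact h1
  have hb0 : ∀ i j, hermForm n F 2 (b i) (b j) = 0 := by
    intro i j
    obtain ⟨x, hx⟩ := haN i
    obtain ⟨y, hy⟩ := haN j
    show hermForm n F 2 (L *ᵥ a i) (L *ᵥ a j) = 0
    rw [hx, hy, mulVec_mulVec, mulVec_mulVec, cLN, ← mulVec_mulVec, ← mulVec_mulVec, hNN0]
  have hab : ∀ i j, hermForm n F 2 (a i) (a j) = hermForm n F 2 (b i) (b j) := by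
    intro i j
    obtain ⟨x, hx⟩ := haN i
    obtain ⟨y, hy⟩ := haN j
    rw [hb0, hx, hy, hNN0]
  have hk : 2 * Module.finrank F U < n := by
    have h1 := Cfsg.Agent.H77.Geom.two_mul_le_of_iso hF hb hb0
    obtain ⟨m, hm⟩ := hodd
    omega
  obtain ⟨z, hz, hzz⟩ := Cfsg.Agent.H77.Geom.exists_nonisotropic hF hb hk
  obtain ⟨g, hg⟩ := Cfsg.Agent.H77.Witt.exists_su_ext hF a b ha hb hab hzz (fun i => hz _ ⟨i, rfl⟩)
  have hgN : ∀ x, act g (N *ᵥ x) = L *ᵥ (N *ᵥ x) := by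
    intro x
    have h1 : (⟨N *ᵥ x, ⟨x, rfl⟩⟩ : U) = ∑ i, bs.repr ⟨N *ᵥ x, ⟨x, rfl⟩⟩ i • bs i := (bs.sum_repr _).symm
    have h2 : N *ᵥ x = ∑ i, bs.repr ⟨N *ᵥ x, ⟨x, rfl⟩⟩ i • a i := by
      have h3 := congrArg (fun u : U => (u : Fin n → F)) h1
      simp only [Submodule.coe_sum, Submodule.coe_smul] at h3
      exact h3
    rw [h2, act_def, mulVec_sum, mulVec_sum]
    refine Finset.sum_congr rfl fun i _ => ?_
    rw [mulVec_smul, mulVec_smul]
    have h3 := hg i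
    rw [act_def] at h3
    rw [h3]
  -- the element `Z'`
  obtain ⟨Y, hY⟩ : ∃ Y : Matrix (Fin n) (Fin n) F, Y = 1 + L * L * N := ⟨_, rfl⟩
  have hYv : ∀ x, Y *ᵥ x = x + L *ᵥ (L *ᵥ (N *ᵥ x)) := by
    intro x
    rw [hY, add_mulVec, one_mulVec, mulVec_mulVec, mulVec_mulVec, Matrix.mul_assoc]
  have cLLN : L * L * N = N * (L * L) := by rw [mul_assoc, cLN, ← mul_assoc, cLN, mul_assoc]
  have hLLN : ∀ x, L *ᵥ (L *ᵥ (N *ᵥ x)) = N *ᵥ (L *ᵥ (L *ᵥ x)) := by
    intro x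
    rw [mulVec_mulVec, mulVec_mulVec, mulVec_mulVec, mulVec_mulVec, cLLN, ← mul_assoc]
  have hYiso : ∀ u v, hermForm n F 2 (Y *ᵥ u) (Y *ᵥ v) = hermForm n F 2 u v := by
    intro u v
    rw [hYv, hYv, hLLN u, hLLN v, herm_add_left, herm_add_right hF, herm_add_right hF, hNN0, add_zero, aN, aL, aL,
      hLLN v, add_assoc]
    have h3 : ∀ t : F, t + t = 0 := by
      intro t
      linear_combination t * two_zero hF
    rw [h3, add_zero]
  obtain ⟨Yg, hYg, hYg'⟩ := Cfsg.Agent.ClassicalGeometry.HermOrtho.exists_GU_of_isometry hF hYiso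
  obtain ⟨Z', hZ'⟩ : ∃ Z' : GU n F 2, gm Z' = Y := ⟨⟨Yg, hYg⟩, hYg'⟩
  have hcA : gm Z' * gm A = gm A * gm Z' := by
    rw [hZ', hY, add_mul, mul_add, one_mul, mul_one]
    congr 1
    calc L * L * N * gm A = L * (L * (N * gm A)) := by simp only [mul_assoc]
      _ = L * ((L * gm A) * N) := by rw [cAN]; simp only [mul_assoc]
      _ = L * ((gm A * L) * N) := by rw [cL]
      _ = (L * gm A) * (L * N) := by simp only [mul_assoc]
      _ = (gm A * L) * (L * N) := by rw [cL]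
      _ = gm A * (L * L * N) := by simp only [mul_assoc]
  have hgZ : mat g * gm Z = gm Z' * mat g := by
    apply Matrix.ext_of_mulVec_single
    intro i
    generalize (Pi.single i 1 : Fin n → F) = x
    rw [← mulVec_mulVec, ← mulVec_mulVec, hZ', hYv, hZN, add_mulVec, one_mulVec, mulVec_add]
    congr 1
    have h1 : N *ᵥ (L *ᵥ (mat g *ᵥ x)) = N *ᵥ x := by
      have h2 : N *ᵥ (L *ᵥ (mat g *ᵥ x)) - N *ᵥ x = 0 := by
        apply herm_nondeg hF
        intro y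
        rw [herm_sub_left, aN, aL]
        have h3 : hermForm n F 2 (mat g *ᵥ x) (L *ᵥ (N *ᵥ y)) = hermForm n F 2 x (N *ᵥ y) := by
          rw [← hgN y]
          exact herm_act g x (N *ᵥ y)
        rw [h3, aN, sub_self]
      exact sub_eq_zero.1 h2
    have h2 : mat g *ᵥ (N *ᵥ x) = L *ᵥ (N *ᵥ x) := hgN x
    have h3 : L *ᵥ (N *ᵥ (mat g *ᵥ x)) = N *ᵥ (L *ᵥ (mat g *ᵥ x)) := by
      rw [mulVec_mulVec, cLN, ← mulVec_mulVec]
    rw [h2, h3, h1]
  have h1 := uniq h hZ hgZ hcA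
  obtain ⟨e, he0, h2⟩ := f₁_eq_iff hF (by omega) h1
  rw [hZ', hZN, hY] at h2
  have h3 : N = e • N := by
    have h4 := congrArg (fun M => M * N) h2
    simp only [add_mul, one_mul, hNN, add_zero, Matrix.smul_mul, mul_assoc, mul_zero] at h4
    exact h4
  have he1 : e = 1 := by
    have h4 : (e - 1) • N = 0 := by rw [sub_smul, one_smul, ← h3, sub_self]
    rcases smul_eq_zero.1 h4 with h5 | h5
    · exact sub_eq_zero.1 h5
    · exact absurd h5 hN0
  rw [he1, one_smul] at h2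
  have h4 : N = L * L * N := add_left_cancel h2
  -- `(L + 1) ^ 2 N = 0`
  have h5 : (L + 1) * ((L + 1) * N) = 0 := by
    calc (L + 1) * ((L + 1) * N) = L * L * N + N + (L * N + L * N) := by noncomm_ring
      _ = 0 := by rw [← h4, add_self hF, add_self hF, add_zero]
  have h6 : (L * L + L) * (L + 1) = 1 := by
    calc (L * L + L) * (L + 1) = L * L * L + L + (L * L + L * L) := by noncomm_ring
      _ = 1 := by rw [add_self hF, add_zero, hL3, add_right_comm, add_self hF, zero_add]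
  have h7 : ∀ X, (L + 1) * X = 0 → X = 0 := by
    intro X hX
    rw [← one_mul X, ← h6, mul_assoc, hX, mul_zero]
  exact hN0 (h7 _ (h7 _ h5))

end Cfsg.Agent.H594.UTwo
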