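import Cfsg.Agent.H594.UTwoC

/-!
# S4114: `PSU_n(2)`, `n` odd (helper594), part D

* `block` : `α` is scalar on the nondegenerate invariant coordinate subspaces of dimension at least 4;
* `no_block`, `no_anis`.
-/

set_option autoImplicit false
set_option linter.unusedSectionVars false

namespace Cfsg.Agent.H594.UTwo

open Matrix Cfsg Cfsg.Agent.H520
open Cfsg.Agent.LieClassical.HermBasic Cfsg.Agent.LieClassical.HermSiegel
open Cfsg.Agent.ClassicalGeometry.PSUAutCount (gm semiConj toAut gm_mul gm_one gm_mul_inv gm_inv_mul eq_of_toAut_eq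
  sc gm_sc_mul toAut_sc_mul herm_gm act_semiConj herm_semi gm_mulVec_inv gm_inv_mulVec gm_inj)
open Cfsg.Agent.ClassicalGeometry.UnitAutBasic (hL hL_apply pr pr_surjective exists_scalar_of_mem_center
  mem_center_of_scalar exists_scalar_of_pr_eq pr_eq_of_scalar tau tau_mul tau_zero tau_eq_one_iff)
open Cfsg.Agent.Schreier.PSU (f₁ f₂ toAut_eq mapGU conj_field toAut_pr' gm_mapGU f₁_eq_conj act_semiConj_one)
open Cfsg.Agent.CpAutU.Desc (toAut_mul exists_conj exists_scalar)
open Cfsg.Agent.H582.FpfPSU (sm sm_smul sm_surj act_semi commute_semi pow_semi pth gm_pow)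
open Cfsg.Agent.Phan (inc extM ext extM_comm extM_isom extM_det extM_mulVec extM_mulVec_of_notMem
  incT_mul_inc_of_disjoint)

section Quasi

variable {G : Type*} [Group G]

/-- `α` centralises an invariant proper quasisimple subgroup. -/
theorem centralizes_quasi [Finite G] {α : MulAut G} (h : Cfg α) {E : Subgroup G} (hE : E ≠ ⊤)
    (hEi : ∀ e ∈ E, α e ∈ E) (hq : IsQuasisimple ↥E) : ∀ e ∈ E, α e = e := by
  refine h.centralizes hE hEi le_rfl hEi hq.1.commutator_eq_top ?_
  intro N hN hs
  rcases Cfsg.Agent.Lib.ComponentSolvable.quasisimple_normal_cases hq hN with h1 | h1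
  · exfalso
    apply Cfsg.Agent.SignalizersComponents.Components.quasisimple_not_isSolvable hq
    subst h1
    exact Group.isSolvable_of_surjective (f := (⊤ : Subgroup ↥E).subtype) (fun x => ⟨⟨x, trivial⟩, rfl⟩)
  · exact h1

end Quasi

section Block

variable {F : Type} [Field F] [Fintype F] {n m : ℕ}

/-- The element `diag (1, c, 1)` of `GU`. -/
theorem exists_refl (hF : Fintype.card F = 2 ^ 2) (x₀ : Fin n) {c : F} (hc : c ≠ 0) :
    ∃ D : GU n F 2, (gm D).det = c ∧ (∀ x i, (gm D *ᵥ x) i = if i = x₀ then c * x i else x i) ∧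
      ∀ (e : Fin m → Fin n), (∀ i, e i ≠ x₀) → ∀ X : Matrix (Fin m) (Fin m) F, extM e X * gm D = gm D * extM e X := by
  let f : Fin 1 → Fin n := fun _ => x₀
  have hf : Function.Injective f := fun i j _ => Subsingleton.elim i j
  let C : Matrix (Fin 1) (Fin 1) F := Matrix.diagonal fun _ => c
  have hC : ∀ u v : Fin 1 → F, hermForm 1 F 2 (C *ᵥ u) (C *ᵥ v) = hermForm 1 F 2 u v := by
    intro u v
    rw [herm_def, herm_def]
    refine Finset.sum_congr rfl fun i _ => ?_
    rw [Matrix.mulVec_diagonal, Matrix.mulVec_diagonal]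
    linear_combination (u i * v i ^ 2) * norm_one hF hc
  obtain ⟨g, hg, hgD⟩ := Cfsg.Agent.ClassicalGeometry.HermOrtho.exists_GU_of_isometry hF (extM_isom hF hf hC)
  refine ⟨⟨g, hg⟩, ?_, ?_, ?_⟩
  · show (g : Matrix (Fin n) (Fin n) F).det = c
    rw [hgD, extM_det hf, Matrix.det_diagonal]
    simp
  · intro x i
    show ((g : Matrix (Fin n) (Fin n) F) *ᵥ x) i = _
    rw [hgD]
    by_cases hi : i = x₀
    · rw [if_pos hi]
      subst hi
      have h1 := extM_mulVec hf C x 0
      rw [Matrix.mulVec_diagonal] at h1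
      exact h1
    · rw [if_neg hi]
      exact extM_mulVec_of_notMem (fun _ => hi) C x
  · intro e he X
    show extM e X * (g : Matrix (Fin n) (Fin n) F) = (g : Matrix (Fin n) (Fin n) F) * extM e X
    rw [hgD]
    exact extM_comm (fun i _ => he i) X C

theorem ext_fix {e : Fin m → Fin n} (he : Function.Injective e) (X : Matrix (Fin m) (Fin m) F) {v : Fin n → F}
    (hv : ∀ i, v (e i) = 0) : extM e X *ᵥ v = v := by
  classical
  funext x
  by_cases hx : ∃ i, x = e i
  · obtain ⟨i, rfl⟩ := hx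
    have h1 : v ∘ e = 0 := funext hv
    rw [extM_mulVec he, h1, mulVec_zero, hv]
    rfl
  · push Not at hx
    exact extM_mulVec_of_notMem hx X v

theorem block_aux (hF : Fintype.card F = 2 ^ 2) (hn : 5 ≤ n) (hm : 4 ≤ m) {A : GU n F 2} (h : Cfg (f₁ A))
    {e : Fin m → Fin n} (he : Function.Injective e) {x₀ : Fin n} (hx₀ : ∀ i, e i ≠ x₀)
    (hA : gm A * (inc F e * (inc F e)ᵀ) = (inc F e * (inc F e)ᵀ) * gm A) :
    ∀ s : SU m F 2, extM e (mat s) * gm A = gm A * extM e (mat s) := by
  classical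
  -- the element of `SU`
  have hd0 : (gm A).det ≠ 0 := det_gm_ne A
  obtain ⟨D, hD, hDx, hDc⟩ := exists_refl (m := m) hF x₀ (inv_ne_zero hd0)
  have hdet : (gm (A * D)).det = 1 := by rw [gm_mul, det_mul, hD, mul_inv_cancel₀ hd0]
  obtain ⟨g, hg, -⟩ := exists_conj_of_det hdet
  have hDP : gm D * (inc F e * (inc F e)ᵀ) = (inc F e * (inc F e)ᵀ) * gm D := by
    have h1 := hDc e hx₀ (2 • (1 : Matrix (Fin m) (Fin m) F))
    have h2 := hDc e hx₀ (0 : Matrix (Fin m) (Fin m) F)
    rw [Cfsg.Agent.Phan.extM, zero_sub, Matrix.mul_neg, Matrix.neg_mul, Matrix.mul_one, add_mul, mul_add, one_mul,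
      mul_one, neg_mul, mul_neg] at h2
    exact (neg_injective (add_left_cancel h2)).symm
  have hgP : mat g * (inc F e * (inc F e)ᵀ) = inc F e * (inc F e)ᵀ * mat g := by
    rw [hg, gm_mul, mul_assoc, hDP, ← mul_assoc, hA, mul_assoc]
  -- conjugation by `A` and by `g`
  have hconj : ∀ s : SU m F 2, semiConj A 1 (ext hF e he s) = g * ext hF e he s * g⁻¹ := by
    intro s
    apply ext_act
    intro y
    have hy : y = act g (act g⁻¹ y) := by rw [act_act_inv]
    generalize act g⁻¹ y = z at hy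
    have h1 : act g z = gm A *ᵥ (gm D *ᵥ z) := by rw [act_def, hg, gm_mul, mulVec_mulVec]
    have h2 : gm D *ᵥ act (ext hF e he s) z = act (ext hF e he s) (gm D *ᵥ z) := by
      show gm D *ᵥ (extM e (mat s) *ᵥ z) = extM e (mat s) *ᵥ (gm D *ᵥ z)
      rw [mulVec_mulVec, mulVec_mulVec, hDc e hx₀]
    rw [hy, act_mul, act_mul, act_inv_act, h1, act_semiConj_one, ← h2]
    rw [act_def g, hg, gm_mul, mulVec_mulVec]
  -- the subgroup
  let φ : SU m F 2 →* PSU n F 2 := (pr n F 2).comp (ext hF e he)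
  have hφ : Function.Injective φ := by
    rw [injective_iff_map_eq_one]
    intro s hs
    have h1 : ext hF e he s ∈ Subgroup.center (SU n F 2) := (QuotientGroup.eq_one_iff _).1 hs
    exact Cfsg.Agent.GenPsu.ext_center hF he (by omega) (fun i => (hx₀ i).symm) h1
  have hq : IsQuasisimple ↥φ.range :=
    Cfsg.Agent.SignalizersComponents.Components.isQuasisimple_of_mulEquiv (MonoidHom.ofInjective hφ)
      (Cfsg.Agent.GenPsu.quasi hF (by omega) (by omega))
  have hne : φ.range ≠ ⊤ := by
    intro htop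
    obtain ⟨w, hw0, hw1⟩ := exists_w hF
    obtain ⟨W, hW, hWx, hWc⟩ := exists_refl (m := m) hF x₀ hw0
    have h1 : f₁ (n := n) (q := 2) W = 1 := by
      ext x
      obtain ⟨s, rfl⟩ : x ∈ φ.range := by rw [htop]; trivial
      show toAut W 1 (pr n F 2 (ext hF e he s)) = pr n F 2 (ext hF e he s)
      rw [toAut_pr']
      congr 1
      apply ext_act
      intro y
      have hy : y = gm W *ᵥ (gm W⁻¹ *ᵥ y) := by rw [gm_mulVec_inv]
      rw [hy, act_semiConj_one]
      generalize gm W⁻¹ *ᵥ y = z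
      show gm W *ᵥ (extM e (mat s) *ᵥ z) = extM e (mat s) *ᵥ (gm W *ᵥ z)
      rw [mulVec_mulVec, mulVec_mulVec, hWc e hx₀]
    have h2 : f₁ (n := n) (q := 2) W = f₁ 1 := by rw [h1, map_one]
    obtain ⟨c, hc, h3⟩ := f₁_eq_iff hF (by omega) h2
    have h4 : ∀ x i, x i = c * (gm W *ᵥ x) i := by
      intro x i
      have h5 := congrArg (fun M => (M *ᵥ x) i) h3
      simp only [gm_one, one_mulVec, smul_mulVec, Pi.smul_apply, smul_eq_mul] at h5
      exact h5
    have h5 := h4 (fun _ => 1) x₀
    have h6 := h4 (fun _ => 1) (e ⟨0, by omega⟩)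
    rw [hWx, if_pos rfl] at h5
    rw [hWx, if_neg (hx₀ _)] at h6
    apply hw1
    rw [mul_one] at h5 h6
    rw [← h6, one_mul] at h5
    exact h5.symm
  have hcen := centralizes_quasi h hne (by
    rintro _ ⟨s, rfl⟩
    obtain ⟨t, ht⟩ := Cfsg.Agent.GenPsu.ext_conj_proj hF he hgP s
    refine ⟨t, ?_⟩
    show pr n F 2 (ext hF e he t) = toAut A 1 (pr n F 2 (ext hF e he s))
    rw [toAut_pr', hconj, ht]) hq
  intro s
  have h1 : toAut A 1 (pr n F 2 (ext hF e he s)) = pr n F 2 (ext hF e he s) := hcen _ ⟨s, rfl⟩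
  rw [toAut_pr'] at h1
  obtain ⟨c, hc, h2⟩ := exists_scalar_of_pr_eq hF (by omega) h1
  -- a vector outside
  have h3 : ∀ x, extM e (mat s) *ᵥ (gm A *ᵥ x) = c • (gm A *ᵥ (extM e (mat s) *ᵥ x)) := by
    intro x
    have h4 := h2 (gm A *ᵥ x)
    rw [act_semiConj_one] at h4
    exact h4
  have h4 : ∀ i, (gm A *ᵥ (Pi.single x₀ 1 : Fin n → F)) (e i) = 0 := by
    intro i
    have h5 := congrArg (fun M => (M *ᵥ (Pi.single x₀ 1 : Fin n → F)) (e i)) hA
    simp only [← mulVec_mulVec, Cfsg.Agent.Phan.incT_mulVec] at h5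
    rw [Cfsg.Agent.Phan.inc_mulVec he] at h5
    have h6 : (Pi.single x₀ 1 : Fin n → F) ∘ e = 0 := by
      funext j
      exact Pi.single_eq_of_ne (hx₀ j) 1
    rw [h6, mulVec_zero, mulVec_zero] at h5
    exact h5.symm
  have h5 := h3 (Pi.single x₀ 1)
  rw [ext_fix he _ h4, ext_fix he _ (fun i => Pi.single_eq_of_ne (hx₀ i) 1)] at h5
  have hc1 : c = 1 := by
    have h6 : (c - 1) • (gm A *ᵥ (Pi.single x₀ 1 : Fin n → F)) = 0 := by rw [sub_smul, one_smul, ← h5, sub_self]
    rcases smul_eq_zero.1 h6 with h7 | h7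
    · exact sub_eq_zero.1 h7
    · exfalso
      have h8 := congrArg (fun y => (gm A⁻¹ *ᵥ y) x₀) h7
      simp only [gm_inv_mulVec, mulVec_zero, Pi.single_eq_same, Pi.zero_apply] at h8
      exact one_ne_zero h8
  apply Matrix.ext_of_mulVec_single
  intro i
  rw [← mulVec_mulVec, ← mulVec_mulVec, h3, hc1, one_smul]

theorem scalar_of_comm (hF : Fintype.card F = 2 ^ 2) (hm : 3 ≤ m) {A : Matrix (Fin n) (Fin n) F}
    {e : Fin m → Fin n} (he : Function.Injective e)
    (h : ∀ s : SU m F 2, extM e (mat s) * A = A * extM e (mat s)) :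
    ∃ a : F, ∀ i, A *ᵥ (Pi.single (e i) 1 : Fin n → F) = a • (Pi.single (e i) 1 : Fin n → F) := by
  classical
  obtain ⟨w, hw0, hw1⟩ := exists_w hF
  have hw2 := w_eq hF hw0 hw1
  have hww : w ^ 2 ≠ w := by
    intro h1
    have h2 : w * w = w * 1 := by rw [mul_one, ← pow_two, h1]
    exact hw1 (mul_left_cancel₀ hw0 h2)
  -- action on the basis vectors
  have hsingle : ∀ (X : Matrix (Fin m) (Fin m) F) (i : Fin m) (c : F) (j : Fin m),
      X *ᵥ (Pi.single i 1 : Fin m → F) = c • (Pi.single j 1 : Fin m → F) →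
      extM e X *ᵥ (Pi.single (e i) 1 : Fin n → F) = c • (Pi.single (e j) 1 : Fin n → F) := by
    intro X i c j hX
    have h1 : ∀ k : Fin m, (Pi.single (e k) 1 : Fin n → F) ∘ e = Pi.single k 1 := by
      intro k
      funext l
      by_cases hl : l = k
      · subst hl
        simp
      · rw [Pi.single_eq_of_ne hl]
        exact Pi.single_eq_of_ne (fun h2 => hl (he h2)) 1
    funext x
    by_cases hx : ∃ k, x = e k
    · obtain ⟨k, rfl⟩ := hx
      rw [extM_mulVec he, h1, hX, Pi.smul_apply, Pi.smul_apply, ← h1 j]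
      rfl
    · push Not at hx
      rw [extM_mulVec_of_notMem hx, Pi.single_eq_of_ne (hx i), Pi.smul_apply, Pi.single_eq_of_ne (hx j), smul_zero]
  -- diagonal elements
  have hdiag : ∀ i, ∃ a : F, A *ᵥ (Pi.single (e i) 1 : Fin n → F) = a • (Pi.single (e i) 1 : Fin n → F) := by
    intro i
    obtain ⟨j, hj⟩ : ∃ j : Fin m, j ≠ i := by
      by_contra hcon
      push Not at hcon
      have h1 := hcon ⟨0, by omega⟩
      have h2 := hcon ⟨1, by omega⟩
      have := h1.trans h2.symm
      simp at this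
    let d : Fin m → F := Function.update (Function.update (fun _ => 1) i w) j (w ^ 2)
    have hdi : d i = w := by simp only [d, Function.update_of_ne hj.symm, Function.update_self]
    have hdj : d j = w ^ 2 := by simp only [d, Function.update_self]
    have hdk : ∀ k, k ≠ i → k ≠ j → d k = 1 := by
      intro k hk1 hk2
      simp only [d, Function.update_of_ne hk2, Function.update_of_ne hk1]
    obtain ⟨s, hs⟩ := exists_diag_SU hF d (by
      intro k
      by_cases hk2 : k = j
      · rw [hk2, hdj]; exact pow_ne_zero 2 hw0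
      · by_cases hk1 : k = i
        · rw [hk1, hdi]; exact hw0
        · rw [hdk k hk1 hk2]; exact one_ne_zero) (by
      simp only [d]
      rw [Finset.prod_update_of_mem (Finset.mem_univ j), Finset.prod_update_of_mem (by simp [hj.symm])]
      rw [Finset.prod_const_one, mul_one, ← pow_succ, cube_one hF hw0])
    have h1 : mat s *ᵥ (Pi.single i 1 : Fin m → F) = w • (Pi.single i 1 : Fin m → F) := by
      funext k
      rw [hs, Matrix.mulVec_diagonal, Pi.smul_apply, smul_eq_mul]
      by_cases hk : k = i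
      · subst hk
        rw [hdi]
      · rw [Pi.single_eq_of_ne hk, mul_zero, mul_zero]
    have h2 := hsingle _ _ _ _ h1
    obtain ⟨v, hv⟩ : ∃ v, v = A *ᵥ (Pi.single (e i) 1 : Fin n → F) := ⟨_, rfl⟩
    have h3 : extM e (mat s) *ᵥ v = w • v := by
      rw [hv, mulVec_mulVec, h, ← mulVec_mulVec, h2, mulVec_smul]
    refine ⟨v (e i), ?_⟩
    rw [← hv]
    funext x
    rw [Pi.smul_apply, smul_eq_mul]
    by_cases hx : ∃ k, x = e k
    · obtain ⟨k, rfl⟩ := hx
      by_cases hk1 : k = i
      · rw [hk1, Pi.single_eq_same, mul_one]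
      · rw [Pi.single_eq_of_ne (fun h4 => hk1 (he h4)), mul_zero]
        have h4 := congrFun h3 (e k)
        rw [extM_mulVec he, hs, Matrix.mulVec_diagonal, Function.comp_apply, Pi.smul_apply, smul_eq_mul] at h4
        by_contra hne
        have h5 := mul_right_cancel₀ hne h4
        by_cases hk2 : k = j
        · rw [hk2, hdj] at h5
          exact hww h5
        · rw [hdk k hk1 hk2] at h5
          exact hw1 h5.symm
    · push Not at hx
      rw [Pi.single_eq_of_ne (hx i), mul_zero]
      have h4 := congrFun h3 x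
      rw [extM_mulVec_of_notMem hx, Pi.smul_apply, smul_eq_mul] at h4
      by_contra hne
      have h5 : (1 : F) * v x = w * v x := by rw [one_mul]; exact h4
      exact hw1 (mul_right_cancel₀ hne h5).symm
  choose a ha using hdiag
  refine ⟨a ⟨0, by omega⟩, fun i => ?_⟩
  rw [ha i]
  congr 1
  by_cases hi : i = ⟨0, by omega⟩
  · rw [hi]
  · -- a permutation
    let σ : Equiv.Perm (Fin m) := Equiv.swap i ⟨0, by omega⟩
    have hσ : ∃ s : SU m F 2, mat s = σ.permMatrix F := by
      refine ⟨mkSU (σ.permMatrix F) ?_ ?_, rfl⟩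
      · rw [Matrix.det_permutation, Equiv.Perm.sign_swap hi]
        have := two_zero hF
        push_cast
        linear_combination -this
      · intro u v
        rw [herm_def, herm_def]
        simp only [Matrix.permMatrix_mulVec, Function.comp_apply]
        exact Equiv.sum_comp σ fun i => u i * v i ^ 2
    obtain ⟨s, hs⟩ := hσ
    have h1 : mat s *ᵥ (Pi.single i 1 : Fin m → F) = (1 : F) • (Pi.single ⟨0, by omega⟩ 1 : Fin m → F) := by
      rw [hs, Matrix.permMatrix_mulVec, one_smul]
      funext k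
      rw [Function.comp_apply]
      by_cases hk : k = ⟨0, by omega⟩
      · rw [hk, Equiv.swap_apply_right, Pi.single_eq_same, Pi.single_eq_same]
      · rw [Pi.single_eq_of_ne hk]
        apply Pi.single_eq_of_ne
        intro h2
        apply hk
        have h3 : σ.symm (σ k) = σ.symm i := congrArg σ.symm h2
        rw [Equiv.symm_apply_apply, Equiv.symm_swap, Equiv.swap_apply_left] at h3
        exact h3
    have h2 := hsingle _ _ _ _ h1
    rw [one_smul] at h2
    have h3 := congrArg (fun M => M *ᵥ (Pi.single (e i) 1 : Fin n → F)) (h s)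
    simp only [← mulVec_mulVec] at h3
    rw [ha i, h2, ha, mulVec_smul, h2] at h3
    have h4 := congrFun h3 (e ⟨0, by omega⟩)
    simp only [Pi.smul_apply, Pi.single_eq_same, smul_eq_mul, mul_one] at h4
    exact h4

end Block

end Cfsg.Agent.H594.UTwo
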