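import Cfsg.Agent.H594.UTwoD

/-!
# S4114: `PSU_n(2)`, `n` odd (helper594), part E

* `Cfg.conj` : conjugate configurations;
* `no_block` : no invariant nondegenerate coordinate subspace of dimension `4 ≤ d < n`;
* `no_anis` : no anisotropic eigenvectors.
-/

set_option autoImplicit false
set_option linter.unusedSectionVars false

namespace Cfsg.Agent.H594.UTwo

open Matrix Cfsg Cfsg.Agent.H520
open Cfsg.Agent.LieClassical.HermBasic Cfsg.Agent.LieClassical.HermSiegel
open Cfsg.Agent.ClassicalGeometry.PSUAutCount (gm semiConj toAut gm_mul gm_one gm_mul_inv gm_inv_mul eq_of_toAut_eq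
  sc gm_sc_mul toAut_sc_mul herm_gm act_semiConj herm_semi gm_mulVec_inv gm_inv_mulVec gm_inj)
open Cfsg.Agent.ClassicalGeometry.UnitAutBasic (hL hL_apply pr pr_surjective exists_scalar_of_mem_center
  mem_center_of_scalar exists_scalar_of_pr_eq pr_eq_of_scalar tau tau_mul tau_zero tau_eq_one_iff)
open Cfsg.Agent.Schreier.PSU (f₁ f₂ toAut_eq mapGU conj_field toAut_pr' gm_mapGU f₁_eq_conj act_semiConj_one)
open Cfsg.Agent.CpAutU.Desc (toAut_mul exists_conj exists_scalar)
open Cfsg.Agent.H582.FpfPSU (sm sm_smul sm_surj act_semi commute_semi pow_semi pth gm_pow)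
open Cfsg.Agent.Phan (inc extM ext extM_comm extM_isom extM_det extM_mulVec extM_mulVec_of_notMem
  incT_mul_inc_of_disjoint)

/-- Conjugate configurations. -/
theorem cfg_conj {G : Type*} [Group G] {α : MulAut G} (h : Cfg α) (β : MulAut G) : Cfg (β * α * β⁻¹) := by
  have h1 : MulAut.congr β α = β * α * β⁻¹ := by
    ext x
    rfl
  rw [← h1]
  exact h.congr β

variable {F : Type} [Field F] [Fintype F] {n m : ℕ}

theorem cfg_conj_gu {A : GU n F 2} (h : Cfg (f₁ A)) (P : GU n F 2) : Cfg (f₁ (P⁻¹ * A * P)) := by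
  have h1 := cfg_conj h (f₁ P⁻¹)
  rwa [← map_inv, ← map_mul, ← map_mul, inv_inv] at h1

theorem block (hF : Fintype.card F = 2 ^ 2) (hn : 5 ≤ n) {A : GU n F 2} (h : Cfg (f₁ A))
    {S : Finset (Fin n)} (hS : 4 ≤ S.card) (hne : S ≠ Finset.univ)
    (hA : ∀ i ∈ S, ∀ j, j ∉ S → gm A i j = 0 ∧ gm A j i = 0) :
    ∃ a : F, ∀ i ∈ S, gm A *ᵥ (Pi.single i 1 : Fin n → F) = a • (Pi.single i 1 : Fin n → F) := by
  classical
  obtain ⟨x₀, hx₀⟩ : ∃ x₀, x₀ ∉ S := by
    by_contra hcon
    push Not at hcon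
    exact hne (Finset.eq_univ_iff_forall.2 hcon)
  let e : Fin S.card → Fin n := fun i => S.orderEmbOfFin rfl i
  have he : Function.Injective e := (S.orderEmbOfFin rfl).injective
  have hmem : ∀ i, e i ∈ S := fun i => S.orderEmbOfFin_mem rfl i
  have hsurj : ∀ x ∈ S, ∃ i, e i = x := by
    intro x hx
    have h1 : x ∈ Set.range (S.orderEmbOfFin rfl) := by rw [S.range_orderEmbOfFin rfl]; exact hx
    exact h1
  have hmr : ∀ x, x ∈ Set.range e ↔ x ∈ S := by
    intro x
    constructor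
    · rintro ⟨i, rfl⟩; exact hmem i
    · exact hsurj x
  have hcomm : gm A * (inc F e * (inc F e)ᵀ) = (inc F e * (inc F e)ᵀ) * gm A := by
    rw [Cfsg.Agent.GenPsu.proj_eq F he]
    ext i j
    rw [Matrix.mul_diagonal, Matrix.diagonal_mul]
    by_cases hi : i ∈ S <;> by_cases hj : j ∈ S
    · rw [if_pos ((hmr i).2 hi), if_pos ((hmr j).2 hj), mul_one, one_mul]
    · rw [(hA i hi j hj).1, zero_mul, mul_zero]
    · rw [(hA j hj i hi).2, zero_mul, mul_zero]
    · rw [if_neg (fun h1 => hi ((hmr i).1 h1)), if_neg (fun h1 => hj ((hmr j).1 h1)), mul_zero, zero_mul]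
  obtain ⟨a, ha⟩ := scalar_of_comm hF (by omega) he
    (block_aux hF hn hS h he (x₀ := x₀) (fun i h1 => hx₀ (by rw [← h1]; exact hmem i)) hcomm)
  refine ⟨a, fun i hi => ?_⟩
  obtain ⟨k, rfl⟩ := hsurj i hi
  exact ha k

/-- the coefficient in terms of the form -/
theorem herm_single' (hF : Fintype.card F = 2 ^ 2) (v : Fin n → F) (i : Fin n) :
    hermForm n F 2 v (Pi.single i 1) = v i := by
  rw [herm_single_right hF]
  simp

theorem eigen_block (hF : Fintype.card F = 2 ^ 2) (hn : 5 ≤ n) {A : GU n F 2} (h : Cfg (f₁ A)) {i₀ : Fin n} {a : F}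
    (ha : gm A *ᵥ (Pi.single i₀ 1 : Fin n → F) = a • (Pi.single i₀ 1 : Fin n → F)) :
    ∃ b : F, ∀ i, i ≠ i₀ → gm A *ᵥ (Pi.single i 1 : Fin n → F) = b • (Pi.single i 1 : Fin n → F) := by
  classical
  have ha0 : a ≠ 0 := by
    intro h0
    have h1 := congrArg (fun y => (gm A⁻¹ *ᵥ y) i₀) ha
    simp only [gm_inv_mulVec, h0, zero_smul, mulVec_zero, Pi.single_eq_same, Pi.zero_apply] at h1
    exact one_ne_zero h1
  obtain ⟨b, hb⟩ := block hF hn h (S := Finset.univ.erase i₀) (by
      rw [Finset.card_erase_of_mem (Finset.mem_univ _), Finset.card_univ, Fintype.card_fin]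
      omega) (by
      intro h1
      have := Finset.mem_univ i₀
      rw [← h1] at this
      exact Finset.notMem_erase _ _ this) (by
      intro i hi j hj
      have hi' : i ≠ i₀ := (Finset.mem_erase.1 hi).1
      have hj' : j = i₀ := by
        by_contra h1
        exact hj (Finset.mem_erase.2 ⟨h1, Finset.mem_univ _⟩)
      subst hj'
      constructor
      · have h1 := congrFun ha i
        rw [Matrix.mulVec_single_one, Pi.smul_apply, Pi.single_eq_of_ne hi', smul_zero] at h1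
        exact h1
      · have h1 := herm_gm A (Pi.single i 1) (Pi.single j 1)
        rw [ha, herm_smul_right, herm_single' hF, herm_single' hF, Pi.single_eq_of_ne hi'.symm] at h1
        have h2 := (mul_eq_zero.1 h1).resolve_left (pow_ne_zero 2 ha0)
        rw [Matrix.mulVec_single_one] at h2
        exact h2)
  exact ⟨b, fun i hi => hb i (Finset.mem_erase.2 ⟨hi, Finset.mem_univ _⟩)⟩

/-- **No invariant nondegenerate coordinate subspace of dimension `4 ≤ d < n`.** -/
theorem no_block (hF : Fintype.card F = 2 ^ 2) (hn : 5 ≤ n) {A : GU n F 2} (h : Cfg (f₁ A))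
    {S : Finset (Fin n)} (hS : 4 ≤ S.card) (hne : S ≠ Finset.univ)
    (hA : ∀ i ∈ S, ∀ j, j ∉ S → gm A i j = 0 ∧ gm A j i = 0) : False := by
  classical
  obtain ⟨a, ha⟩ := block hF hn h hS hne hA
  obtain ⟨i₀, hi₀, i₁, hi₁, h01⟩ := Finset.one_lt_card.1 (show 1 < S.card by omega)
  obtain ⟨b, hb⟩ := eigen_block hF hn h (ha i₀ hi₀)
  have hab : a = b := by
    have h1 := hb i₁ h01.symm
    rw [ha i₁ hi₁] at h1
    have h2 := congrFun h1 i₁
    simpa using h2
  apply h.ne
  have h1 : gm A = a • (1 : Matrix (Fin n) (Fin n) F) := by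
    apply Matrix.ext_of_mulVec_single
    intro i
    rw [smul_mulVec, one_mulVec]
    by_cases hi : i = i₀
    · rw [hi, ha i₀ hi₀]
    · rw [hb i hi, hab]
  have ha0 : a ≠ 0 := by
    rintro rfl
    have h2 := gm_mul_inv A
    rw [h1, zero_smul, zero_mul] at h2
    have h3 := congrFun (congrFun h2 i₀) i₀
    simp at h3
  have h2 := f₁_of_smul hF (A := (1 : GU n F 2)) (B := A) ha0 (by rw [h1, gm_one])
  rw [h2, map_one]

/-- **No anisotropic eigenvectors.** -/
theorem no_anis (hF : Fintype.card F = 2 ^ 2) (hn : 5 ≤ n) {A : GU n F 2} (h : Cfg (f₁ A)) {v : Fin n → F}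
    (hv : hermForm n F 2 v v ≠ 0) {a : F} (ha : gm A *ᵥ v = a • v) : False := by
  classical
  obtain ⟨k, rfl⟩ : ∃ k, n = k + 1 := ⟨n - 1, by omega⟩
  have hv1 : hermForm (k + 1) F 2 v v = 1 := by
    have h1 := herm_self_pow hF v
    have h2 : hermForm (k + 1) F 2 v v * hermForm (k + 1) F 2 v v = hermForm (k + 1) F 2 v v * 1 := by
      rw [mul_one, ← pow_two, h1]
    exact mul_left_cancel₀ hv h2
  obtain ⟨G, hG, hGe⟩ := Cfsg.Agent.GH.Cov.LieU4.exists_iso_single hF hv1
  obtain ⟨g, hg, hgG⟩ := Cfsg.Agent.ClassicalGeometry.HermOrtho.exists_GU_of_isometry hF hG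
  obtain ⟨P, hP⟩ : ∃ P : GU (k + 1) F 2, gm P = G := ⟨⟨g, hg⟩, hgG⟩
  have hPe : gm P *ᵥ (Pi.single 0 1 : Fin (k + 1) → F) = v := by rw [hP, hGe]
  have h' := cfg_conj_gu h P
  have ha' : gm (P⁻¹ * A * P) *ᵥ (Pi.single 0 1 : Fin (k + 1) → F) = a • (Pi.single 0 1 : Fin (k + 1) → F) := by
    rw [gm_mul, gm_mul, ← mulVec_mulVec, ← mulVec_mulVec, hPe, ha, mulVec_smul, ← hPe, gm_inv_mulVec]
  obtain ⟨b, hb⟩ := eigen_block hF hn h' ha'
  obtain ⟨A', hA'⟩ : ∃ A' : GU (k + 1) F 2, A' = P⁻¹ * A * P := ⟨_, rfl⟩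
  rw [← hA'] at h' ha' hb
  -- `A'` is diagonal
  have hdiag : gm A' = Matrix.diagonal (Function.update (fun _ => b) 0 a) := by
    apply Matrix.ext_of_mulVec_single
    intro i
    by_cases hi : i = 0
    · subst hi
      rw [ha']
      funext j
      rw [Matrix.mulVec_diagonal, Pi.smul_apply, smul_eq_mul]
      by_cases hj : j = 0
      · subst hj
        rw [Function.update_self]
      · rw [Pi.single_eq_of_ne hj, mul_zero, mul_zero]
    · rw [hb i hi]
      funext j
      rw [Matrix.mulVec_diagonal, Pi.smul_apply, smul_eq_mul]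
      by_cases hj : j = i
      · subst hj
        rw [Function.update_of_ne hi]
      · rw [Pi.single_eq_of_ne hj, mul_zero, mul_zero]
  have hd : (gm A').det ≠ 0 := det_gm_ne A'
  have hne : ∀ i, Function.update (fun _ => b) (0 : Fin (k + 1)) a i ≠ 0 := by
    rw [hdiag, Matrix.det_diagonal, Finset.prod_ne_zero_iff] at hd
    exact fun i => hd i (Finset.mem_univ i)
  have h3 : A' ^ 3 = 1 := by
    apply gm_inj
    rw [gm_pow, hdiag, Matrix.diagonal_pow, gm_one, ← Matrix.diagonal_one]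
    congr 1
    funext i
    exact cube_one hF (hne i)
  have : Fact (Nat.Prime 3) := ⟨Nat.prime_three⟩
  have h4 : orderOf (f₁ (n := k + 1) (q := 2) A') = 3 := orderOf_eq_prime (by rw [← map_pow, h3, map_one]) h'.ne
  exact h'.not_primepow (p := 3) (three_dvd_card hF (by omega)) 1 (by rw [pow_one]; exact h4)

end Cfsg.Agent.H594.UTwo
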