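import Cfsg.Agent.H594.UTwoE

/-!
# S4114: `PSU_n(2)`, `n` odd (helper594), part F

* `reduce` : `n = 5` and `α` leaves invariant a decomposition `3 + 2`.
-/

set_option autoImplicit false
set_option linter.unusedSectionVars false

namespace Cfsg.Agent.H594.UTwo

open Matrix Cfsg Cfsg.Agent.H520
open Cfsg.Agent.LieClassical.HermBasic Cfsg.Agent.LieClassical.HermSiegel
open Cfsg.Agent.ClassicalGeometry.PSUAutCount (gm semiConj toAut gm_mul gm_one gm_mul_inv gm_inv_mul eq_of_toAut_eq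
  sc gm_sc_mul toAut_sc_mul herm_gm act_semiConj herm_semi gm_mulVec_inv gm_inv_mulVec gm_inj)
open Cfsg.Agent.ClassicalGeometry.UnitAutBasic (hL hL_apply pr pr_surjective exists_scalar_of_mem_center
  mem_center_of_scalar exists_scalar_of_pr_eq pr_eq_of_scalar tau tau_mul tau_zero tau_eq_one_iff)
open Cfsg.Agent.Schreier.PSU (f₁ f₂ toAut_eq mapGU conj_field toAut_pr' gm_mapGU f₁_eq_conj act_semiConj_one)
open Cfsg.Agent.CpAutU.Desc (toAut_mul exists_conj exists_scalar)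
open Cfsg.Agent.H582.FpfPSU (sm sm_smul sm_surj act_semi commute_semi pow_semi pth gm_pow)
open Cfsg.Agent.Phan (inc extM ext extM_comm extM_isom extM_det extM_mulVec extM_mulVec_of_notMem
  incT_mul_inc_of_disjoint)

variable {F : Type} [Field F] [Fintype F] {n m : ℕ}

/-- block structure -/
def Blk (A : GU n F 2) (S : Finset (Fin n)) : Prop := ∀ i ∈ S, ∀ j, j ∉ S → gm A i j = 0 ∧ gm A j i = 0

theorem Blk.compl {A : GU n F 2} {S : Finset (Fin n)} (h : Blk A S) : Blk A Sᶜ := by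
  intro i hi j hj
  rw [Finset.mem_compl] at hi
  rw [Finset.mem_compl, not_not] at hj
  exact ⟨(h j hj i hi).2, (h j hj i hi).1⟩

theorem reduce (hF : Fintype.card F = 2 ^ 2) (hn : 5 ≤ n) (hodd : Odd n) {A : GU n F 2} (h : Cfg (f₁ A)) :
    n = 5 ∧ ∃ (A' : GU n F 2) (S : Finset (Fin n)), Cfg (f₁ A') ∧ S.card = 3 ∧ Blk A' S := by
  classical
  obtain ⟨y, hy, hyo⟩ := exists_three hF (by omega) h
  obtain ⟨j, rfl⟩ := exists_pow_of_mem hy
  have h1 : toAut (A ^ j) 1 ^ 3 = 1 := by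
    have h2 : f₁ (n := n) (q := 2) A ^ j = toAut (A ^ j) 1 := (map_pow f₁ A j).symm
    have h3 := pow_orderOf_eq_one (f₁ (n := n) (q := 2) A ^ j)
    rw [hyo] at h3
    rw [← h2, h3]
  obtain ⟨l, hlq, hl⟩ := pow_eq_smul hF (by omega) h1
  have hl0 : l ≠ 0 := Cfsg.Agent.H582.FpfPSU.ne_zero_of_norm hlq
  have hl1 := eq_one_of_cube hF (by omega) hodd h hl0 hl
  rw [hl1, one_smul] at hl
  obtain ⟨w, hw0, hw1⟩ := exists_w hF
  have hwp : IsPrimitiveRoot w 3 := by
    have : Fact (Nat.Prime 3) := ⟨Nat.prime_three⟩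
    have h2 := IsPrimitiveRoot.orderOf w
    rwa [orderOf_eq_prime (cube_one hF hw0) hw1] at h2
  have h3F : ((3 : ℕ) : F) ≠ 0 := by
    have h2 : ((3 : ℕ) : F) = 1 + 2 := by norm_num
    rw [h2, two_zero hF, add_zero]
    exact one_ne_zero
  obtain ⟨U, hU, s, hs, hMU⟩ := Cfsg.Agent.H960.exists_diag_U hF hwp (by norm_num) (by norm_num) h3F n (gm (A ^ j))
    (fun u v => herm_gm (A ^ j) u v) hl
  obtain ⟨g, hg, hgU⟩ := Cfsg.Agent.ClassicalGeometry.HermOrtho.exists_GU_of_isometry hF hU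
  obtain ⟨P, hP⟩ : ∃ P : GU n F 2, gm P = U := ⟨⟨g, hg⟩, hgU⟩
  have h' := cfg_conj_gu h P
  obtain ⟨A', hA'⟩ : ∃ A' : GU n F 2, A' = P⁻¹ * A * P := ⟨_, rfl⟩
  rw [← hA'] at h'
  have hcomm : gm A' * Matrix.diagonal s = Matrix.diagonal s * gm A' := by
    have h2 : Matrix.diagonal s = gm P⁻¹ * gm (A ^ j) * gm P := by
      rw [mul_assoc, hP, hMU, ← hP, ← mul_assoc, gm_inv_mul, one_mul]
    rw [h2, hA', ← gm_mul, ← gm_mul, ← gm_mul, ← gm_mul]
    congr 1
    have h3 : A * A ^ j = A ^ j * A := by rw [← pow_succ, ← pow_succ']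
    calc P⁻¹ * A * P * (P⁻¹ * A ^ j * P) = P⁻¹ * (A * A ^ j) * P := by group
      _ = P⁻¹ * (A ^ j * A) * P := by rw [h3]
      _ = P⁻¹ * A ^ j * P * (P⁻¹ * A * P) := by group
  have hz : ∀ i k, s i ≠ s k → gm A' i k = 0 := by
    intro i k hik
    have h2 := congrFun (congrFun hcomm i) k
    rw [Matrix.mul_diagonal, Matrix.diagonal_mul] at h2
    have h3 : (s i - s k) * gm A' i k = 0 := by linear_combination -h2
    exact (mul_eq_zero.1 h3).resolve_left (sub_ne_zero.2 hik)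
  have hblk : ∀ c, Blk A' (Finset.univ.filter fun i => s i = c) := by
    intro c i hi k hk
    have hi' : s i = c := (Finset.mem_filter.1 hi).2
    have hk' : s k ≠ c := fun h2 => hk (Finset.mem_filter.2 ⟨Finset.mem_univ _, h2⟩)
    exact ⟨hz i k (by rw [hi']; exact hk'.symm), hz k i (by rw [hi']; exact hk')⟩
  -- not scalar
  obtain ⟨i₀, i₁, h01⟩ : ∃ i₀ i₁, s i₀ ≠ s i₁ := by
    by_contra hcon
    push Not at hcon
    have h2 : gm (A ^ j) = s ⟨0, by omega⟩ • (1 : Matrix (Fin n) (Fin n) F) := by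
      have h3 : Matrix.diagonal s = s ⟨0, by omega⟩ • (1 : Matrix (Fin n) (Fin n) F) := by
        rw [← Matrix.diagonal_one, ← Matrix.diagonal_smul]
        congr 1
        funext i
        rw [Pi.smul_apply, smul_eq_mul, mul_one]
        exact hcon _ _
      have h4 : gm (A ^ j) * gm P = s ⟨0, by omega⟩ • gm P := by
        rw [hP, hMU, h3, Matrix.mul_smul, mul_one]
      calc gm (A ^ j) = (gm (A ^ j) * gm P) * gm P⁻¹ := by rw [mul_assoc, gm_mul_inv, mul_one]
        _ = _ := by rw [h4, Matrix.smul_mul, gm_mul_inv]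
    have h3 : s ⟨0, by omega⟩ ≠ 0 := by
      intro h4
      have h5 := hs ⟨0, by omega⟩
      rw [h4, zero_pow (by norm_num)] at h5
      exact zero_ne_one h5
    have h4 := f₁_of_smul hF (A := (1 : GU n F 2)) (B := A ^ j) h3 (by rw [h2, gm_one])
    rw [map_pow, map_one] at h4
    rw [h4, orderOf_one] at hyo
    omega
  let S : Finset (Fin n) := Finset.univ.filter fun i => s i = s i₀
  have hi₀ : i₀ ∈ S := Finset.mem_filter.2 ⟨Finset.mem_univ _, rfl⟩
  have hi₁ : i₁ ∉ S := fun h2 => h01 (Finset.mem_filter.1 h2).2.symm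
  have hS1 : S ≠ Finset.univ := fun h2 => hi₁ (by rw [h2]; exact Finset.mem_univ _)
  have hS2 : Sᶜ ≠ Finset.univ := by
    intro h2
    have h3 : i₀ ∈ Sᶜ := by rw [h2]; exact Finset.mem_univ _
    exact (Finset.mem_compl.1 h3) hi₀
  have hc1 : S.card ≤ 3 := by
    by_contra hcon
    exact no_block hF hn h' (by omega) hS1 (hblk _)
  have hc2 : Sᶜ.card ≤ 3 := by
    by_contra hcon
    exact no_block hF hn h' (by omega) hS2 (hblk _).compl
  have hc3 : S.card + Sᶜ.card = n := by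
    rw [Finset.card_add_card_compl, Fintype.card_fin]
  have hn5 : n = 5 := by
    obtain ⟨k, hk⟩ := hodd
    omega
  refine ⟨hn5, A', ?_⟩
  by_cases hc : S.card = 3
  · exact ⟨S, h', hc, hblk _⟩
  · exact ⟨Sᶜ, h', by omega, (hblk _).compl⟩

end Cfsg.Agent.H594.UTwo
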