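import Cfsg.Agent.H594.UTwoF

/-!
# S4114: `PSU_5(2)` (helper594), part G

* `swap_block` : the action on the invariant nondegenerate plane;
* `claim1` : no eigenvector in the 3-dimensional part.
-/

set_option autoImplicit false
set_option linter.unusedSectionVars false

namespace Cfsg.Agent.H594.UTwo

open Matrix Cfsg Cfsg.Agent.H520
open Cfsg.Agent.LieClassical.HermBasic Cfsg.Agent.LieClassical.HermSiegel
open Cfsg.Agent.ClassicalGeometry.PSUAutCount (gm semiConj toAut gm_mul gm_one gm_mul_inv gm_inv_mul eq_of_toAut_eq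
  sc gm_sc_mul toAut_sc_mul herm_gm act_semiConj herm_semi gm_mulVec_inv gm_inv_mulVec gm_inj)
open Cfsg.Agent.ClassicalGeometry.UnitAutBasic (hL hL_apply pr pr_surjective exists_scalar_of_mem_center
  mem_center_of_scalar exists_scalar_of_pr_eq pr_eq_of_scalar tau tau_mul tau_zero tau_eq_one_iff)
open Cfsg.Agent.Schreier.PSU (f₁ f₂ toAut_eq mapGU conj_field toAut_pr' gm_mapGU f₁_eq_conj act_semiConj_one)
open Cfsg.Agent.CpAutU.Desc (toAut_mul exists_conj exists_scalar)
open Cfsg.Agent.H582.FpfPSU (sm sm_smul sm_surj act_semi commute_semi pow_semi pth gm_pow)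
open Cfsg.Agent.Phan (inc extM ext extM_comm extM_isom extM_det extM_mulVec extM_mulVec_of_notMem
  incT_mul_inc_of_disjoint)

variable {F : Type} [Field F] [Fintype F] {n m : ℕ}

/-- five distinct indices -/
structure Fr (i j k p q : Fin 5) : Prop where
  hij : i ≠ j
  hik : i ≠ k
  hip : i ≠ p
  hiq : i ≠ q
  hjk : j ≠ k
  hjp : j ≠ p
  hjq : j ≠ q
  hkp : k ≠ p
  hkq : k ≠ q
  hpq : p ≠ q

theorem Fr.univ {i j k p q : Fin 5} (h : Fr i j k p q) : (Finset.univ : Finset (Fin 5)) = {i, j, k, p, q} := by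
  symm
  apply Finset.eq_univ_of_card
  have h1 : q ∉ (∅ : Finset (Fin 5)) := Finset.notMem_empty _
  rw [Finset.card_insert_of_notMem, Finset.card_insert_of_notMem, Finset.card_insert_of_notMem,
    Finset.card_insert_of_notMem, Finset.card_singleton, Fintype.card_fin]
  · simp [h.hpq]
  · simp [h.hkp, h.hkq]
  · simp [h.hjk, h.hjp, h.hjq]
  · simp [h.hij, h.hik, h.hip, h.hiq]

theorem Fr.sum {i j k p q : Fin 5} (h : Fr i j k p q) (f : Fin 5 → F) :
    ∑ x, f x = f i + (f j + (f k + (f p + f q))) := by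
  rw [h.univ, Finset.sum_insert, Finset.sum_insert, Finset.sum_insert, Finset.sum_insert, Finset.sum_singleton]
  · simp [h.hpq]
  · simp [h.hkp, h.hkq]
  · simp [h.hjk, h.hjp, h.hjq]
  · simp [h.hij, h.hik, h.hip, h.hiq]

theorem Fr.mem {i j k p q : Fin 5} (h : Fr i j k p q) (x : Fin 5) : x = i ∨ x = j ∨ x = k ∨ x = p ∨ x = q := by
  have h1 := Finset.mem_univ x
  rw [h.univ] at h1
  simpa using h1

theorem Fr.rot {i j k p q : Fin 5} (h : Fr i j k p q) : Fr j k i p q :=
  ⟨h.hjk, h.hij.symm, h.hjp, h.hjq, h.hik.symm, h.hkp, h.hkq, h.hip, h.hiq, h.hpq⟩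

theorem half (hF : Fintype.card F = 2 ^ 2) {A : GU 5 F 2} (h : Cfg (f₁ A)) {p q : Fin 5} (hpq : p ≠ q)
    (hb : ∀ x, x ≠ p → x ≠ q → gm A x p = 0) :
    ∃ r : F, r ≠ 0 ∧ gm A *ᵥ (Pi.single p 1 : Fin 5 → F) = r • (Pi.single q 1 : Fin 5 → F) := by
  classical
  have h1 : gm A *ᵥ (Pi.single p 1 : Fin 5 → F) = gm A p p • (Pi.single p 1 : Fin 5 → F) +
      gm A q p • (Pi.single q 1 : Fin 5 → F) := by
    rw [mulVec_single_one]
    funext x
    show gm A x p = gm A p p * (Pi.single p 1 : Fin 5 → F) x + gm A q p * (Pi.single q 1 : Fin 5 → F) x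
    by_cases hx : x = p
    · subst hx
      rw [Pi.single_eq_same, Pi.single_eq_of_ne hpq, mul_one, mul_zero, add_zero]
    · by_cases hx' : x = q
      · subst hx'
        rw [Pi.single_eq_same, Pi.single_eq_of_ne hx, mul_one, mul_zero, zero_add]
      · rw [Pi.single_eq_of_ne hx, Pi.single_eq_of_ne hx', mul_zero, mul_zero, add_zero]
        exact hb x hx hx'
  generalize hx : gm A p p = x at h1
  generalize hr : gm A q p = r at h1
  have h2 := herm_gm A (Pi.single p 1) (Pi.single p 1)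
  rw [h1, herm_add_left, herm_smul_left, herm_smul_left, herm_add_right hF, herm_add_right hF, herm_smul_right,
    herm_smul_right, herm_smul_right, herm_smul_right] at h2
  simp only [herm_single' hF, Pi.single_eq_same, Pi.single_eq_of_ne hpq, Pi.single_eq_of_ne hpq.symm] at h2
  by_cases hr0 : r = 0
  · exfalso
    rw [hr0, zero_smul, add_zero] at h1
    refine no_anis hF (by omega) h (v := Pi.single p 1) ?_ h1
    rw [herm_single' hF, Pi.single_eq_same]
    exact one_ne_zero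
  · have h3 := cube_one hF hr0
    have hx0 : x = 0 := by
      have h4 : x ^ 3 = 0 := by linear_combination h2 - h3
      exact pow_eq_zero_iff (by norm_num) |>.1 h4
    rw [hx0, zero_smul, zero_add] at h1
    exact ⟨r, hr0, h1⟩

/-- **Claim 1.** -/
theorem claim1 (hF : Fintype.card F = 2 ^ 2) {A : GU 5 F 2} (h : Cfg (f₁ A)) {i j k p q : Fin 5}
    (hfr : Fr i j k p q) (hz : ∀ x, x = i ∨ x = j ∨ x = k → ∀ y, y = p ∨ y = q → gm A x y = 0 ∧ gm A y x = 0)
    {r s : F} (hr : r ≠ 0) (hs : s ≠ 0)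
    (hMp : gm A *ᵥ (Pi.single p 1 : Fin 5 → F) = r • (Pi.single q 1 : Fin 5 → F))
    (hMq : gm A *ᵥ (Pi.single q 1 : Fin 5 → F) = s • (Pi.single p 1 : Fin 5 → F))
    {v : Fin 5 → F} (hvk : v k = 0) (hvp : v p = 0) (hvq : v q = 0) (hvi : v i ≠ 0) (hvj : v j ≠ 0) {a : F}
    (hv : gm A *ᵥ v = a • v) : False := by
  classical
  have h2F := two_zero hF
  have hv0 : v ≠ 0 := fun h1 => hvi (by rw [h1]; rfl)
  have ha0 : a ≠ 0 := by
    rintro rfl
    rw [zero_smul] at hv
    have h1 := congrArg (fun y => gm A⁻¹ *ᵥ y) hv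
    simp only [gm_inv_mulVec, mulVec_zero] at h1
    exact hv0 h1
  have ha3 := cube_one hF ha0
  have hi3 := cube_one hF hvi
  have hj3 := cube_one hF hvj
  have hvv : hermForm 5 F 2 v v = 0 := by
    rw [herm_def, hfr.sum, hvk, hvp, hvq]
    linear_combination hi3 + hj3 + h2F
  -- `M e_k`
  have hMk1 : ∀ x y, (x = i ∨ x = j ∨ x = k) → (y = p ∨ y = q) → (gm A *ᵥ (Pi.single x 1 : Fin 5 → F)) y = 0 := by
    intro x y hx hy
    rw [mulVec_single_one]
    exact (hz x hx y hy).2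
  have hkv : hermForm 5 F 2 (gm A *ᵥ (Pi.single k 1 : Fin 5 → F)) v = 0 := by
    have h1 := herm_gm A (Pi.single k 1) v
    rw [hv, herm_smul_right, herm_single_left, hvk] at h1
    have h3 : a ^ 2 * hermForm 5 F 2 (gm A *ᵥ (Pi.single k 1 : Fin 5 → F)) v = 0 := by
      rw [h1]
      ring
    exact (mul_eq_zero.1 h3).resolve_left (pow_ne_zero 2 ha0)
  rw [herm_def, hfr.sum, hvk, hvp, hvq] at hkv
  obtain ⟨b, b', hMk⟩ : ∃ b b' : F, gm A *ᵥ (Pi.single k 1 : Fin 5 → F) =
      b • (Pi.single k 1 : Fin 5 → F) + b' • v := by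
    generalize hu : gm A *ᵥ (Pi.single k 1 : Fin 5 → F) = u at hkv
    refine ⟨u k, u i * v i ^ 2, ?_⟩
    funext x
    show u x = u k * (Pi.single k 1 : Fin 5 → F) x + u i * v i ^ 2 * v x
    rcases hfr.mem x with rfl | rfl | rfl | rfl | rfl
    · rw [Pi.single_eq_of_ne hfr.hik]
      linear_combination -u x * hi3
    · rw [Pi.single_eq_of_ne hfr.hjk]
      have h3 : u x * v x ^ 2 = u i * v i ^ 2 := by linear_combination hkv - u i * v i ^ 2 * h2F
      linear_combination v x * h3 - u x * hj3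
    · rw [Pi.single_eq_same, hvk]
      ring
    · rw [Pi.single_eq_of_ne hfr.hkp.symm, hvp, ← hu, hMk1 k x (Or.inr (Or.inr rfl)) (Or.inl rfl)]
      ring
    · rw [Pi.single_eq_of_ne hfr.hkq.symm, hvq, ← hu, hMk1 k x (Or.inr (Or.inr rfl)) (Or.inr rfl)]
      ring
  have hkk : ∀ x : F, hermForm 5 F 2 ((Pi.single k 1 : Fin 5 → F) + x • v) ((Pi.single k 1 : Fin 5 → F) + x • v) ≠ 0 := by
    intro x
    rw [herm_add_left, herm_add_right hF, herm_add_right hF, herm_smul_left, herm_smul_left, herm_smul_right,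
      herm_smul_right, hvv, herm_single' hF, herm_single' hF, herm_single_left, hvk, Pi.single_eq_same]
    intro h1
    apply one_ne_zero (α := F)
    linear_combination h1
  have hba : b = a := by
    by_contra hne
    refine no_anis hF (by omega) h (hkk (b' / (b - a))) (a := b) ?_
    rw [mulVec_add, mulVec_smul, hMk, hv]
    have h3 : b - a ≠ 0 := sub_ne_zero.2 hne
    rw [add_assoc, smul_smul, ← add_smul, smul_add, smul_smul]
    congr 2
    field_simp
    ring
  subst hba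
  have hb'0 : b' ≠ 0 := by
    rintro rfl
    refine no_anis hF (by omega) h (v := Pi.single k 1) (a := b) ?_ (by rw [hMk, zero_smul, add_zero])
    have := hkk 0
    rwa [zero_smul, add_zero] at this
  have hb'3 := cube_one hF hb'0
  -- `M e_i`
  obtain ⟨α, hMi⟩ : ∃ α : F, gm A *ᵥ (Pi.single i 1 : Fin 5 → F) =
      b • (Pi.single i 1 : Fin 5 → F) + α • v + (b' ^ 2 * b ^ 2 * v i ^ 2) • (Pi.single k 1 : Fin 5 → F) := by
    have h4 := herm_gm A (Pi.single i 1) v
    rw [hv, herm_smul_right, herm_single_left, one_mul] at h4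
    have h5 : hermForm 5 F 2 (gm A *ᵥ (Pi.single i 1 : Fin 5 → F)) v = b * v i ^ 2 := by
      linear_combination b * h4 - hermForm 5 F 2 (gm A *ᵥ (Pi.single i 1 : Fin 5 → F)) v * ha3
    have h6 := herm_gm A (Pi.single i 1) (Pi.single k 1)
    rw [hMk, herm_add_right hF, herm_smul_right, herm_smul_right, h5, herm_single' hF, herm_single' hF,
      Pi.single_eq_of_ne hfr.hik.symm] at h6
    rw [herm_def, hfr.sum, hvk, hvp, hvq] at h5
    generalize hu : gm A *ᵥ (Pi.single i 1 : Fin 5 → F) = u at h5 h6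
    have h7 : u k = b' ^ 2 * b ^ 2 * v i ^ 2 := by
      linear_combination b * h6 - u k * ha3 - b' ^ 2 * b ^ 2 * v i ^ 2 * h2F
    refine ⟨u j * v j ^ 2, ?_⟩
    funext x
    show u x = b * (Pi.single i 1 : Fin 5 → F) x + u j * v j ^ 2 * v x +
      b' ^ 2 * b ^ 2 * v i ^ 2 * (Pi.single k 1 : Fin 5 → F) x
    rw [← h7]
    rcases hfr.mem x with rfl | rfl | rfl | rfl | rfl
    · rw [Pi.single_eq_of_ne hfr.hik, Pi.single_eq_same]
      have h8 : u x * v x ^ 3 + u j * v j ^ 2 * v x = b * v x ^ 3 := by linear_combination v x * h5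
      linear_combination h8 + (b - u x) * hi3 - u j * v j ^ 2 * v x * h2F
    · rw [Pi.single_eq_of_ne hfr.hjk, Pi.single_eq_of_ne hfr.hij.symm]
      linear_combination -u x * hj3
    · rw [Pi.single_eq_same, hvk, Pi.single_eq_of_ne hfr.hik.symm]
      ring
    · rw [Pi.single_eq_of_ne hfr.hkp.symm, Pi.single_eq_of_ne hfr.hip.symm, hvp, ← hu,
        hMk1 i x (Or.inl rfl) (Or.inl rfl)]
      ring
    · rw [Pi.single_eq_of_ne hfr.hkq.symm, Pi.single_eq_of_ne hfr.hiq.symm, hvq, ← hu,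
        hMk1 i x (Or.inl rfl) (Or.inr rfl)]
      ring
  -- squares
  have hM2v : gm A *ᵥ (gm A *ᵥ v) = b ^ 2 • v := by
    rw [hv, mulVec_smul, hv, smul_smul, pow_two]
  have hM2k : gm A *ᵥ (gm A *ᵥ (Pi.single k 1 : Fin 5 → F)) = b ^ 2 • (Pi.single k 1 : Fin 5 → F) := by
    rw [hMk, mulVec_add, mulVec_smul, mulVec_smul, hMk, hv]
    funext x
    simp only [Pi.add_apply, Pi.smul_apply, smul_eq_mul]
    linear_combination b * b' * v x * h2F
  have hM2i : gm A *ᵥ (gm A *ᵥ (Pi.single i 1 : Fin 5 → F)) =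
      b ^ 2 • (Pi.single i 1 : Fin 5 → F) + (b ^ 2 * v i ^ 2) • v := by
    rw [hMi, mulVec_add, mulVec_add, mulVec_smul, mulVec_smul, mulVec_smul, hMi, hMk, hv]
    funext x
    simp only [Pi.add_apply, Pi.smul_apply, smul_eq_mul]
    linear_combination (b * α * v x + b * (b' ^ 2 * b ^ 2 * v i ^ 2) * (Pi.single k 1 : Fin 5 → F) x) * h2F +
      b ^ 2 * v i ^ 2 * v x * hb'3
  have hM2p : gm A *ᵥ (gm A *ᵥ (Pi.single p 1 : Fin 5 → F)) = (r * s) • (Pi.single p 1 : Fin 5 → F) := by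
    rw [hMp, mulVec_smul, hMq, smul_smul]
  have hM2q : gm A *ᵥ (gm A *ᵥ (Pi.single q 1 : Fin 5 → F)) = (r * s) • (Pi.single q 1 : Fin 5 → F) := by
    rw [hMq, mulVec_smul, hMp, smul_smul, mul_comm]
  have hrs3 : (r * s) ^ 3 = 1 := cube_one hF (mul_ne_zero hr hs)
  have hb6 : b ^ 6 = 1 := by linear_combination (b ^ 3 + 1) * ha3
  -- the sixth power
  have h6 : ∀ x, gm (A ^ 6) *ᵥ x =
      gm A *ᵥ (gm A *ᵥ (gm A *ᵥ (gm A *ᵥ (gm A *ᵥ (gm A *ᵥ x))))) := by
    intro x
    rw [gm_pow]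
    simp only [mulVec_mulVec]
    congr 1
    simp only [← pow_succ', ← pow_two]
  have hTv : gm (A ^ 6) *ᵥ v = v := by
    rw [h6, hM2v, mulVec_smul, mulVec_smul, hM2v, mulVec_smul, mulVec_smul, mulVec_smul, mulVec_smul, hM2v]
    simp only [smul_smul]
    rw [show b ^ 2 * (b ^ 2 * b ^ 2) = 1 by linear_combination hb6, one_smul]
  have hTk : gm (A ^ 6) *ᵥ (Pi.single k 1 : Fin 5 → F) = Pi.single k 1 := by
    rw [h6, hM2k, mulVec_smul, mulVec_smul, hM2k, mulVec_smul, mulVec_smul, mulVec_smul, mulVec_smul, hM2k]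
    simp only [smul_smul]
    rw [show b ^ 2 * (b ^ 2 * b ^ 2) = 1 by linear_combination hb6, one_smul]
  have hTp : gm (A ^ 6) *ᵥ (Pi.single p 1 : Fin 5 → F) = Pi.single p 1 := by
    rw [h6, hM2p, mulVec_smul, mulVec_smul, hM2p, mulVec_smul, mulVec_smul, mulVec_smul, mulVec_smul, hM2p]
    simp only [smul_smul]
    rw [show r * s * (r * s * (r * s)) = 1 by linear_combination hrs3, one_smul]
  have hTq : gm (A ^ 6) *ᵥ (Pi.single q 1 : Fin 5 → F) = Pi.single q 1 := by
    rw [h6, hM2q, mulVec_smul, mulVec_smul, hM2q, mulVec_smul, mulVec_smul, mulVec_smul, mulVec_smul, hM2q]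
    simp only [smul_smul]
    rw [show r * s * (r * s * (r * s)) = 1 by linear_combination hrs3, one_smul]
  have hTi : gm (A ^ 6) *ᵥ (Pi.single i 1 : Fin 5 → F) = Pi.single i 1 + v i ^ 2 • v := by
    rw [h6, hM2i]
    simp only [mulVec_add, mulVec_smul, hM2i, hM2v]
    funext x
    simp only [Pi.add_apply, Pi.smul_apply, smul_eq_mul]
    linear_combination ((Pi.single i 1 : Fin 5 → F) x + v i ^ 2 * v x) * hb6 + b ^ 6 * v i ^ 2 * v x * h2F
  have hT : ∀ x, gm (A ^ 6) *ᵥ x = x + hermForm 5 F 2 x v • v := by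
    intro x
    have hx : x = (x j * v j ^ 2) • v + ((x i - x j * v j ^ 2 * v i) • (Pi.single i 1 : Fin 5 → F) +
        (x k • (Pi.single k 1 : Fin 5 → F) + (x p • (Pi.single p 1 : Fin 5 → F) +
          x q • (Pi.single q 1 : Fin 5 → F)))) := by
      funext y
      simp only [Pi.add_apply, Pi.smul_apply, smul_eq_mul]
      rcases hfr.mem y with rfl | rfl | rfl | rfl | rfl
      · rw [Pi.single_eq_same, Pi.single_eq_of_ne hfr.hik, Pi.single_eq_of_ne hfr.hip, Pi.single_eq_of_ne hfr.hiq]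
        ring
      · rw [Pi.single_eq_of_ne hfr.hij.symm, Pi.single_eq_of_ne hfr.hjk, Pi.single_eq_of_ne hfr.hjp,
          Pi.single_eq_of_ne hfr.hjq]
        linear_combination -x y * hj3
      · rw [Pi.single_eq_of_ne hfr.hik.symm, Pi.single_eq_same, Pi.single_eq_of_ne hfr.hkp,
          Pi.single_eq_of_ne hfr.hkq, hvk]
        ring
      · rw [Pi.single_eq_of_ne hfr.hip.symm, Pi.single_eq_of_ne hfr.hkp.symm, Pi.single_eq_same,
          Pi.single_eq_of_ne hfr.hpq, hvp]
        ring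
      · rw [Pi.single_eq_of_ne hfr.hiq.symm, Pi.single_eq_of_ne hfr.hkq.symm, Pi.single_eq_of_ne hfr.hpq.symm,
          Pi.single_eq_same, hvq]
        ring
    have hxT : gm (A ^ 6) *ᵥ x = (x j * v j ^ 2) • v + ((x i - x j * v j ^ 2 * v i) •
        ((Pi.single i 1 : Fin 5 → F) + v i ^ 2 • v) +
        (x k • (Pi.single k 1 : Fin 5 → F) + (x p • (Pi.single p 1 : Fin 5 → F) +
          x q • (Pi.single q 1 : Fin 5 → F)))) := by
      conv_lhs => rw [hx]
      simp only [mulVec_add, mulVec_smul, hTv, hTi, hTk, hTp, hTq]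
    rw [hxT, herm_def, hfr.sum, hvk, hvp, hvq]
    funext y
    have hy := congrFun hx y
    simp only [Pi.add_apply, Pi.smul_apply, smul_eq_mul] at hy ⊢
    linear_combination -hy - x j * v j ^ 2 * v y * hi3 - x j * v j ^ 2 * v y * h2F
  -- the isotropic eigenvector in the plane
  obtain ⟨l, hl⟩ : ∃ l : F, l = (r * s) ^ 2 := ⟨_, rfl⟩
  have hl0 : l ≠ 0 := by rw [hl]; exact pow_ne_zero 2 (mul_ne_zero hr hs)
  have hl2 : l ^ 2 = r * s := by rw [hl]; linear_combination (r * s) * hrs3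
  have hl3 := cube_one hF hl0
  have hs3 := cube_one hF hs
  obtain ⟨w, hw⟩ : ∃ w : Fin 5 → F, w = s • (Pi.single p 1 : Fin 5 → F) + l • (Pi.single q 1 : Fin 5 → F) := ⟨_, rfl⟩
  have hMw : gm A *ᵥ w = l • w := by
    rw [hw, mulVec_add, mulVec_smul, mulVec_smul, hMp, hMq]
    funext y
    simp only [Pi.add_apply, Pi.smul_apply, smul_eq_mul]
    linear_combination -(Pi.single q 1 : Fin 5 → F) y * hl2
  have hwi : w i = 0 := by
    rw [hw]
    simp only [Pi.add_apply, Pi.smul_apply, smul_eq_mul]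
    rw [Pi.single_eq_of_ne hfr.hip, Pi.single_eq_of_ne hfr.hiq]
    ring
  have hwj : w j = 0 := by
    rw [hw]
    simp only [Pi.add_apply, Pi.smul_apply, smul_eq_mul]
    rw [Pi.single_eq_of_ne hfr.hjp, Pi.single_eq_of_ne hfr.hjq]
    ring
  have hwk : w k = 0 := by
    rw [hw]
    simp only [Pi.add_apply, Pi.smul_apply, smul_eq_mul]
    rw [Pi.single_eq_of_ne hfr.hkp, Pi.single_eq_of_ne hfr.hkq]
    ring
  have hwp : w p = s := by
    rw [hw]
    simp only [Pi.add_apply, Pi.smul_apply, smul_eq_mul]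
    rw [Pi.single_eq_same, Pi.single_eq_of_ne hfr.hpq]
    ring
  have hwq : w q = l := by
    rw [hw]
    simp only [Pi.add_apply, Pi.smul_apply, smul_eq_mul]
    rw [Pi.single_eq_same, Pi.single_eq_of_ne hfr.hpq.symm]
    ring
  have hw0 : w ≠ 0 := fun h1 => hs (by rw [← hwp, h1]; rfl)
  have hww : hermForm 5 F 2 w w = 0 := by
    rw [herm_def, hfr.sum, hwi, hwj, hwk, hwp, hwq]
    linear_combination hs3 + hl3 + h2F
  obtain ⟨g, hg⟩ := Cfsg.Agent.H77.Witt.exists_su_ext hF (fun _ : Fin 1 => v) (fun _ : Fin 1 => w)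
    (linearIndependent_unique_iff.2 hv0) (linearIndependent_unique_iff.2 hw0) (fun _ _ => by rw [hvv, hww])
    (z := Pi.single i 1) (by rw [herm_single' hF, Pi.single_eq_same]; exact one_ne_zero)
    (fun _ => by rw [herm_single_left, hwi]; ring)
  have hgv : act g v = w := hg 0
  obtain ⟨G, hG, -⟩ := exists_gu g
  have hZ' : ∀ x, gm (G * A ^ 6 * G⁻¹) *ᵥ x = x + hermForm 5 F 2 x w • w := by
    intro x
    have h7 : hermForm 5 F 2 (gm G⁻¹ *ᵥ x) v = hermForm 5 F 2 x w := by
      have h8 := herm_gm G (gm G⁻¹ *ᵥ x) v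
      rw [gm_mulVec_inv, hG] at h8
      rw [← h8, ← hgv]
      rfl
    rw [gm_mul, gm_mul, ← mulVec_mulVec, ← mulVec_mulVec, hT, mulVec_add, mulVec_smul, gm_mulVec_inv, h7, hG]
    congr 2
  have hcomm : gm (G * A ^ 6 * G⁻¹) * gm A = gm A * gm (G * A ^ 6 * G⁻¹) := by
    apply Matrix.ext_of_mulVec_single
    intro y
    generalize (Pi.single y 1 : Fin 5 → F) = x
    rw [← mulVec_mulVec, ← mulVec_mulVec, hZ', hZ', mulVec_add, mulVec_smul, hMw, smul_smul]
    congr 2
    have h8 := herm_gm A x w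
    rw [hMw, herm_smul_right] at h8
    linear_combination l * h8 - hermForm 5 F 2 (gm A *ᵥ x) w * hl3
  have hun := uniq h (Z := A ^ 6) (Z' := G * A ^ 6 * G⁻¹) (by rw [map_pow]; exact pow_mem (Subgroup.mem_zpowers _) 6)
    (g := g) (by rw [← hG, ← gm_mul, ← gm_mul, inv_mul_cancel_right]) hcomm
  obtain ⟨c, hc0, hc⟩ := f₁_eq_iff hF (by norm_num) hun
  have h9 := congrArg (fun M => (M *ᵥ (Pi.single p 1 : Fin 5 → F)) q) hc
  simp only [smul_mulVec, hTp, hZ', Pi.smul_apply, Pi.add_apply, smul_eq_mul] at h9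
  rw [herm_single_left, hwp, hwq, Pi.single_eq_of_ne hfr.hpq.symm, one_mul, zero_add] at h9
  exact (mul_ne_zero hc0 (mul_ne_zero (pow_ne_zero 2 hs) hl0)) h9.symm

/-- **Claim 1**, all cases. -/
theorem claim1' (hF : Fintype.card F = 2 ^ 2) {A : GU 5 F 2} (h : Cfg (f₁ A)) {i j k p q : Fin 5}
    (hfr : Fr i j k p q) (hz : ∀ x, x = i ∨ x = j ∨ x = k → ∀ y, y = p ∨ y = q → gm A x y = 0 ∧ gm A y x = 0)
    {v : Fin 5 → F} (hv0 : v ≠ 0) (hvp : v p = 0) (hvq : v q = 0) {a : F}
    (hv : gm A *ᵥ v = a • v) : False := by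
  classical
  have h2F := two_zero hF
  obtain ⟨r, hr, hMp⟩ := half hF h hfr.hpq (fun x hx hx' => by
    rcases hfr.mem x with h1 | h1 | h1 | h1 | h1
    · exact (hz x (Or.inl h1) p (Or.inl rfl)).1
    · exact (hz x (Or.inr (Or.inl h1)) p (Or.inl rfl)).1
    · exact (hz x (Or.inr (Or.inr h1)) p (Or.inl rfl)).1
    · exact absurd h1 hx
    · exact absurd h1 hx')
  obtain ⟨s, hs, hMq⟩ := half hF h hfr.hpq.symm (fun x hx hx' => by
    rcases hfr.mem x with h1 | h1 | h1 | h1 | h1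
    · exact (hz x (Or.inl h1) q (Or.inr rfl)).1
    · exact (hz x (Or.inr (Or.inl h1)) q (Or.inr rfl)).1
    · exact (hz x (Or.inr (Or.inr h1)) q (Or.inr rfl)).1
    · exact absurd h1 hx'
    · exact absurd h1 hx)
  have hvv : hermForm 5 F 2 v v = 0 := by
    by_contra h1
    exact no_anis hF (by norm_num) h h1 hv
  rw [herm_def, hfr.sum, hvp, hvq] at hvv
  by_cases hvi : v i = 0
  · by_cases hvj : v j = 0
    · by_cases hvk : v k = 0
      · apply hv0
        funext x
        rcases hfr.mem x with rfl | rfl | rfl | rfl | rfl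
        · exact hvi
        · exact hvj
        · exact hvk
        · exact hvp
        · exact hvq
      · exfalso
        have h3 := cube_one hF hvk
        rw [hvi, hvj] at hvv
        apply one_ne_zero (α := F)
        linear_combination hvv - h3
    · by_cases hvk : v k = 0
      · exfalso
        have h3 := cube_one hF hvj
        rw [hvi, hvk] at hvv
        apply one_ne_zero (α := F)
        linear_combination hvv - h3
      · -- j, k, i
        exact claim1 hF h hfr.rot (fun x hx => hz x (by tauto)) hr hs hMp hMq hvi hvp hvq hvj hvk hv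
  · by_cases hvj : v j = 0
    · by_cases hvk : v k = 0
      · exfalso
        have h3 := cube_one hF hvi
        rw [hvj, hvk] at hvv
        apply one_ne_zero (α := F)
        linear_combination hvv - h3
      · exact claim1 hF h hfr.rot.rot (fun x hx => hz x (by tauto)) hr hs hMp hMq hvj hvp hvq hvk hvi hv
    · by_cases hvk : v k = 0
      · exact claim1 hF h hfr hz hr hs hMp hMq hvk hvp hvq hvi hvj hv
      · exfalso
        have h3 := cube_one hF hvi
        have h4 := cube_one hF hvj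
        have h5 := cube_one hF hvk
        apply one_ne_zero (α := F)
        linear_combination hvv - h3 - h4 - h5 - h2F

end Cfsg.Agent.H594.UTwo
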