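import Cfsg.Agent.H594.UTwoG

/-!
# S4114: `PSU_5(2)` (helper594), part H

* `cube_scalar` : an element of `GU_3(2)` without eigenvectors has scalar cube;
* `claim2` : there is an eigenvector in the 3-dimensional part.
-/

set_option autoImplicit false
set_option linter.unusedSectionVars false

namespace Cfsg.Agent.H594.UTwo

open Matrix Cfsg Cfsg.Agent.H520
open Cfsg.Agent.LieClassical.HermBasic Cfsg.Agent.LieClassical.HermSiegel
open Cfsg.Agent.ClassicalGeometry.PSUAutCount (gm semiConj toAut gm_mul gm_one gm_mul_inv gm_inv_mul eq_of_toAut_eq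
  sc gm_sc_mul toAut_sc_mul herm_gm act_semiConj herm_semi gm_mulVec_inv gm_inv_mulVec gm_inj)
open Cfsg.Agent.ClassicalGeometry.UnitAutBasic (hL hL_apply pr pr_surjective exists_scalar_of_mem_center
  mem_center_of_scalar exists_scalar_of_pr_eq pr_eq_of_scalar tau tau_mul tau_zero tau_eq_one_iff)
open Cfsg.Agent.Schreier.PSU (f₁ f₂ toAut_eq mapGU conj_field toAut_pr' gm_mapGU f₁_eq_conj act_semiConj_one)
open Cfsg.Agent.CpAutU.Desc (toAut_mul exists_conj exists_scalar)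
open Cfsg.Agent.H582.FpfPSU (sm sm_smul sm_surj act_semi commute_semi pow_semi pth gm_pow)
open Cfsg.Agent.Phan (inc extM ext extM_comm extM_isom extM_det extM_mulVec extM_mulVec_of_notMem
  incT_mul_inc_of_disjoint)

variable {F : Type} [Field F] [Fintype F] {n m : ℕ}

/-- Cayley-Hamilton in degree 3. -/
theorem cayley_three (M : Matrix (Fin 3) (Fin 3) F) :
    M * (M * M) = (M 0 0 + M 1 1 + M 2 2) • (M * M) -
      ((M 1 1 * M 2 2 - M 1 2 * M 2 1) + (M 0 0 * M 2 2 - M 0 2 * M 2 0) + (M 0 0 * M 1 1 - M 0 1 * M 1 0)) • M +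
      M.det • (1 : Matrix (Fin 3) (Fin 3) F) := by
  ext x y
  rw [det_fin_three]
  fin_cases x <;> fin_cases y <;>
    simp [Matrix.mul_apply, Fin.sum_univ_three, Matrix.add_apply, Matrix.sub_apply, Matrix.smul_apply] <;> ring

theorem det_char_three (M : Matrix (Fin 3) (Fin 3) F) (t : F) :
    (t • (1 : Matrix (Fin 3) (Fin 3) F) - M).det = t ^ 3 - (M 0 0 + M 1 1 + M 2 2) * t ^ 2 +
      ((M 1 1 * M 2 2 - M 1 2 * M 2 1) + (M 0 0 * M 2 2 - M 0 2 * M 2 0) + (M 0 0 * M 1 1 - M 0 1 * M 1 0)) * t -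
      M.det := by
  rw [det_fin_three, det_fin_three]
  simp [Matrix.sub_apply, Matrix.smul_apply]
  ring

theorem cube_scalar (hF : Fintype.card F = 2 ^ 2) (B : GU 3 F 2)
    (hB : ∀ (v : Fin 3 → F) (a : F), v ≠ 0 → gm B *ᵥ v ≠ a • v) :
    ∃ l : F, gm B ^ 3 = l • (1 : Matrix (Fin 3) (Fin 3) F) := by
  have h2F := two_zero hF
  have : CharP F 2 := char_two hF
  obtain ⟨M, hM⟩ : ∃ M, M = gm B := ⟨_, rfl⟩
  have h1 : (M.map (fun x => x ^ 2))ᵀ * M = 1 := by
    ext x y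
    have h2 := herm_gm B (Pi.single y 1) (Pi.single x 1)
    rw [mulVec_single_one, mulVec_single_one, herm_def, herm_single' hF, ← hM] at h2
    rw [Matrix.mul_apply]
    simp only [Matrix.transpose_apply, Matrix.map_apply]
    have h3 : (1 : Matrix (Fin 3) (Fin 3) F) x y = (Pi.single y 1 : Fin 3 → F) x := by
      by_cases hxy : x = y
      · subst hxy
        rw [Matrix.one_apply_eq, Pi.single_eq_same]
      · rw [Matrix.one_apply_ne hxy, Pi.single_eq_of_ne hxy]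
    rw [h3, ← h2]
    refine Finset.sum_congr rfl fun z _ => ?_
    show M z x ^ 2 * M z y = M z y * M z x ^ 2
    ring
  have h2 : M.adjugate = M.det • (M.map (fun x => x ^ 2))ᵀ := by
    calc M.adjugate = ((M.map (fun x => x ^ 2))ᵀ * M) * M.adjugate := by rw [h1, one_mul]
      _ = _ := by rw [mul_assoc, Matrix.mul_adjugate, Matrix.mul_smul, mul_one]
  rw [adjugate_fin_three] at h2
  have h00 := congrFun (congrFun h2 0) 0
  have h11 := congrFun (congrFun h2 1) 1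
  have h22 := congrFun (congrFun h2 2) 2
  simp [Matrix.smul_apply, Matrix.transpose_apply, Matrix.map_apply] at h00 h11 h22
  have he2 : (M 1 1 * M 2 2 - M 1 2 * M 2 1) + (M 0 0 * M 2 2 - M 0 2 * M 2 0) + (M 0 0 * M 1 1 - M 0 1 * M 1 0) =
      M.det * (M 0 0 + M 1 1 + M 2 2) ^ 2 := by
    linear_combination h00 + h11 + h22 - M.det * (M 0 0 * M 1 1 + M 0 0 * M 2 2 + M 1 1 * M 2 2) * h2F
  by_cases ht : M 0 0 + M 1 1 + M 2 2 = 0
  · refine ⟨M.det, ?_⟩
    have h3 := cayley_three M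
    rw [he2, ht] at h3
    rw [← hM, pow_succ', pow_two, h3]
    simp
  · exfalso
    have h3 := cube_one hF ht
    have h4 : ((M 0 0 + M 1 1 + M 2 2) • (1 : Matrix (Fin 3) (Fin 3) F) - M).det = 0 := by
      rw [det_char_three, he2]
      linear_combination M.det * h3
    obtain ⟨v, hv, hv'⟩ := Matrix.exists_mulVec_eq_zero_iff.2 h4
    apply hB v (M 0 0 + M 1 1 + M 2 2) hv
    rw [sub_mulVec, smul_mulVec, one_mulVec, sub_eq_zero] at hv'
    rw [← hM]
    exact hv'.symm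

theorem Fr.prod {i j k p q : Fin 5} (h : Fr i j k p q) (f : Fin 5 → F) :
    ∏ x, f x = f i * (f j * (f k * (f p * f q))) := by
  rw [h.univ, Finset.prod_insert, Finset.prod_insert, Finset.prod_insert, Finset.prod_insert, Finset.prod_singleton]
  · simp [h.hpq]
  · simp [h.hkp, h.hkq]
  · simp [h.hjk, h.hjp, h.hjq]
  · simp [h.hij, h.hik, h.hip, h.hiq]

/-- **Claim 2.** -/
theorem claim2 (hF : Fintype.card F = 2 ^ 2) {A : GU 5 F 2} (h : Cfg (f₁ A)) {i j k p q : Fin 5}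
    (hfr : Fr i j k p q) (hz : ∀ x, x = i ∨ x = j ∨ x = k → ∀ y, y = p ∨ y = q → gm A x y = 0 ∧ gm A y x = 0) :
    False := by
  classical
  let e : Fin 3 → Fin 5 := ![i, j, k]
  have he0 : e 0 = i := rfl
  have he1 : e 1 = j := rfl
  have he2 : e 2 = k := rfl
  have he : Function.Injective e := by
    intro x y hxy
    fin_cases x <;> fin_cases y
    · rfl
    · exact absurd hxy hfr.hij
    · exact absurd hxy hfr.hik
    · exact absurd hxy hfr.hij.symm
    · rfl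
    · exact absurd hxy hfr.hjk
    · exact absurd hxy hfr.hik.symm
    · exact absurd hxy hfr.hjk.symm
    · rfl
  have hem : ∀ a, e a = i ∨ e a = j ∨ e a = k := by
    intro a
    fin_cases a
    · exact Or.inl rfl
    · exact Or.inr (Or.inl rfl)
    · exact Or.inr (Or.inr rfl)
  have hnp : ∀ a, p ≠ e a := by
    intro a
    fin_cases a
    · exact hfr.hip.symm
    · exact hfr.hjp.symm
    · exact hfr.hkp.symm
  have hnq : ∀ a, q ≠ e a := by
    intro a
    fin_cases a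
    · exact hfr.hiq.symm
    · exact hfr.hjq.symm
    · exact hfr.hkq.symm
  have hcases : ∀ x, (∃ a, x = e a) ∨ x = p ∨ x = q := by
    intro x
    rcases hfr.mem x with h1 | h1 | h1 | h1 | h1
    · exact Or.inl ⟨0, h1⟩
    · exact Or.inl ⟨1, h1⟩
    · exact Or.inl ⟨2, h1⟩
    · exact Or.inr (Or.inl h1)
    · exact Or.inr (Or.inr h1)
  obtain ⟨M₁, hM₁⟩ : ∃ M₁ : Matrix (Fin 3) (Fin 3) F, M₁ = (gm A).submatrix e e := ⟨_, rfl⟩
  have hsub : ∀ u : Fin 3 → F, gm A *ᵥ (inc F e *ᵥ u) = inc F e *ᵥ (M₁ *ᵥ u) := by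
    intro u
    have hi : (inc F e *ᵥ u) i = u 0 := Cfsg.Agent.Phan.inc_mulVec he u 0
    have hj : (inc F e *ᵥ u) j = u 1 := Cfsg.Agent.Phan.inc_mulVec he u 1
    have hk : (inc F e *ᵥ u) k = u 2 := Cfsg.Agent.Phan.inc_mulVec he u 2
    have hp : (inc F e *ᵥ u) p = 0 := Cfsg.Agent.Phan.inc_mulVec_of_notMem hnp u
    have hq : (inc F e *ᵥ u) q = 0 := Cfsg.Agent.Phan.inc_mulVec_of_notMem hnq u
    have hx : ∀ x, (gm A *ᵥ (inc F e *ᵥ u)) x = gm A x i * u 0 + gm A x j * u 1 + gm A x k * u 2 := by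
      intro x
      show ∑ y, gm A x y * (inc F e *ᵥ u) y = _
      rw [hfr.sum, hi, hj, hk, hp, hq]
      ring
    funext x
    rcases hcases x with ⟨a, rfl⟩ | rfl | rfl
    · rw [hx, Cfsg.Agent.Phan.inc_mulVec he]
      show _ = ∑ b, M₁ a b * u b
      rw [Fin.sum_univ_three, hM₁]
      rfl
    · rw [hx, Cfsg.Agent.Phan.inc_mulVec_of_notMem hnp, (hz i (Or.inl rfl) x (Or.inl rfl)).2,
        (hz j (Or.inr (Or.inl rfl)) x (Or.inl rfl)).2, (hz k (Or.inr (Or.inr rfl)) x (Or.inl rfl)).2]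
      ring
    · rw [hx, Cfsg.Agent.Phan.inc_mulVec_of_notMem hnq, (hz i (Or.inl rfl) x (Or.inr rfl)).2,
        (hz j (Or.inr (Or.inl rfl)) x (Or.inr rfl)).2, (hz k (Or.inr (Or.inr rfl)) x (Or.inr rfl)).2]
      ring
  have hiso : ∀ u v, hermForm 3 F 2 (M₁ *ᵥ u) (M₁ *ᵥ v) = hermForm 3 F 2 u v := by
    intro u v
    rw [← Cfsg.Agent.Phan.herm_inc he, ← hsub, ← hsub, herm_gm, Cfsg.Agent.Phan.herm_inc he]
  obtain ⟨g₀, hg₀, hgM⟩ := Cfsg.Agent.ClassicalGeometry.HermOrtho.exists_GU_of_isometry hF hiso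
  obtain ⟨B, hB⟩ : ∃ B : GU 3 F 2, gm B = M₁ := ⟨⟨g₀, hg₀⟩, hgM⟩
  rw [← hB] at hsub
  have hne : ∀ (v : Fin 3 → F) (a : F), v ≠ 0 → gm B *ᵥ v ≠ a • v := by
    intro v a hv hva
    have h1 : gm A *ᵥ (inc F e *ᵥ v) = a • (inc F e *ᵥ v) := by rw [hsub, hva, mulVec_smul]
    refine claim1' hF h hfr hz ?_ (Cfsg.Agent.Phan.inc_mulVec_of_notMem hnp v)
      (Cfsg.Agent.Phan.inc_mulVec_of_notMem hnq v) h1
    intro h2
    apply hv
    funext x
    rw [← Cfsg.Agent.Phan.inc_mulVec he v x, h2]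
    rfl
  obtain ⟨l, hl⟩ := cube_scalar hF B hne
  obtain ⟨w, hw0, hw1⟩ := exists_w hF
  have hwp : IsPrimitiveRoot w 3 := by
    have : Fact (Nat.Prime 3) := ⟨Nat.prime_three⟩
    have h2 := IsPrimitiveRoot.orderOf w
    rwa [orderOf_eq_prime (cube_one hF hw0) hw1] at h2
  have hw3 := cube_one hF hw0
  obtain ⟨v, hv0, ho⟩ := Cfsg.Agent.H582.FpfPSU.exists_v2 hF Nat.prime_three (by norm_num) hl
  have ha : hermForm 3 F 2 v v ≠ 0 := by
    intro h1
    have h2 : LinearIndependent F ![v, gm B *ᵥ v] :=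
      (LinearIndependent.pair_iff' hv0).2 fun a h3 => hne v a hv0 h3.symm
    have h3 : hermForm 3 F 2 (gm B *ᵥ v) v = 0 := by
      have := ho 1 0 (by norm_num) (by norm_num) (by norm_num)
      rwa [pow_one, pow_zero, one_mulVec] at this
    have h4 := Cfsg.Agent.H77.Geom.two_mul_le_of_iso hF h2 (by
      intro x y
      fin_cases x <;> fin_cases y
      · exact h1
      · exact herm_eq_zero_swap hF h3
      · exact h3
      · show hermForm 3 F 2 (gm B *ᵥ v) (gm B *ᵥ v) = 0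
        rw [herm_gm]
        exact h1)
    omega
  obtain ⟨D, hD⟩ := Cfsg.Agent.H582.FpfPSU.exists_D hF Nat.prime_three (by decide) hwp (norm_one hF hw0) hl ha ho
  -- the diagonal element
  obtain ⟨d, hd⟩ : ∃ d : Fin 5 → F, d = fun x => if x = p ∨ x = q then 1 else w := ⟨_, rfl⟩
  have hdp : d p = 1 := by rw [hd]; exact if_pos (Or.inl rfl)
  have hdq : d q = 1 := by rw [hd]; exact if_pos (Or.inr rfl)
  have hde : ∀ a, d (e a) = w := by
    intro a
    rw [hd]
    exact if_neg (by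
      rintro (h1 | h1)
      · exact hnp a h1.symm
      · exact hnq a h1.symm)
  obtain ⟨s, hs⟩ := exists_diag_SU hF d (by
      intro x
      rcases hcases x with ⟨a, rfl⟩ | rfl | rfl
      · rw [hde]; exact hw0
      · rw [hdp]; exact one_ne_zero
      · rw [hdq]; exact one_ne_zero) (by
      rw [hfr.prod, hdp, hdq, ← he0, ← he1, ← he2, hde, hde, hde]
      linear_combination hw3)
  obtain ⟨R, hR, -⟩ := exists_gu s
  rw [hs] at hR
  have hRA : gm R * gm A = gm A * gm R := by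
    rw [hR]
    ext x y
    rw [Matrix.mul_diagonal, Matrix.diagonal_mul]
    rcases hcases x with ⟨a, rfl⟩ | hx <;> rcases hcases y with ⟨b, rfl⟩ | hy
    · rw [hde, hde]
      ring
    · rw [(hz _ (hem a) y hy).1]
      ring
    · rw [(hz _ (hem b) x hx).2]
      ring
    · have h1 : d x = 1 := by rcases hx with rfl | rfl <;> assumption
      have h2 : d y = 1 := by rcases hy with rfl | rfl <;> assumption
      rw [h1, h2]
      ring
  have hRinc : ∀ u : Fin 3 → F, gm R *ᵥ (inc F e *ᵥ u) = w • (inc F e *ᵥ u) := by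
    intro u
    rw [hR]
    funext x
    rw [Matrix.mulVec_diagonal, Pi.smul_apply, smul_eq_mul]
    rcases hcases x with ⟨a, rfl⟩ | rfl | rfl
    · rw [hde]
    · rw [Cfsg.Agent.Phan.inc_mulVec_of_notMem hnp, mul_zero, mul_zero]
    · rw [Cfsg.Agent.Phan.inc_mulVec_of_notMem hnq, mul_zero, mul_zero]
  have hRfix : ∀ x : Fin 5 → F, (∀ a, x (e a) = 0) → gm R *ᵥ x = x := by
    intro x hx
    rw [hR]
    funext y
    rw [Matrix.mulVec_diagonal]
    rcases hcases y with ⟨a, rfl⟩ | rfl | rfl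
    · rw [hx, mul_zero]
    · rw [hdp, one_mul]
    · rw [hdq, one_mul]
  have hAfix : ∀ x : Fin 5 → F, (∀ a, x (e a) = 0) → ∀ a, (gm A *ᵥ x) (e a) = 0 := by
    intro x hx a
    show ∑ y, gm A (e a) y * x y = 0
    refine Finset.sum_eq_zero fun y _ => ?_
    rcases hcases y with ⟨b, rfl⟩ | hy
    · rw [hx, mul_zero]
    · rw [(hz _ (hem a) y hy).1, zero_mul]
  have hkey : ∀ x : Fin 5 → F, extM e (mat D) *ᵥ (gm A *ᵥ x) = gm R *ᵥ (gm A *ᵥ (extM e (mat D) *ᵥ x)) := by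
    intro x
    obtain ⟨x', hx', hxx⟩ : ∃ x' : Fin 5 → F, (∀ a, x' (e a) = 0) ∧ x = inc F e *ᵥ (x ∘ e) + x' := by
      refine ⟨x - inc F e *ᵥ (x ∘ e), fun a => ?_, ?_⟩
      · rw [Pi.sub_apply, Cfsg.Agent.Phan.inc_mulVec he]
        exact sub_self _
      · rw [add_sub_cancel]
    have h1 : extM e (mat D) *ᵥ (gm A *ᵥ (inc F e *ᵥ (x ∘ e))) =
        gm R *ᵥ (gm A *ᵥ (extM e (mat D) *ᵥ (inc F e *ᵥ (x ∘ e)))) := by
      rw [hsub, Cfsg.Agent.Phan.extM_inc he, Cfsg.Agent.Phan.extM_inc he, hsub, hRinc, ← mulVec_smul]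
      congr 1
      exact hD _
    have h2 : extM e (mat D) *ᵥ (gm A *ᵥ x') = gm R *ᵥ (gm A *ᵥ (extM e (mat D) *ᵥ x')) := by
      rw [ext_fix he _ hx', ext_fix he _ (hAfix x' hx'), hRfix _ (hAfix x' hx')]
    rw [hxx]
    simp only [mulVec_add]
    rw [h1, h2]
  have hun := uniq h (Z := A) (Z' := R * A) (Subgroup.mem_zpowers _) (g := ext hF e he D) (by
      apply Matrix.ext_of_mulVec_single
      intro y
      rw [gm_mul, ← mulVec_mulVec, ← mulVec_mulVec, ← mulVec_mulVec]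
      exact hkey _) (by
      rw [gm_mul, hRA, mul_assoc, hRA])
  obtain ⟨c, hc0, hc⟩ := f₁_eq_iff hF (by norm_num) hun
  have h1 : (1 : Matrix (Fin 5) (Fin 5) F) = c • gm R := by
    calc (1 : Matrix (Fin 5) (Fin 5) F) = gm A * gm A⁻¹ := (gm_mul_inv A).symm
      _ = (c • gm (R * A)) * gm A⁻¹ := by rw [← hc]
      _ = c • gm R := by rw [gm_mul, Matrix.smul_mul, mul_assoc, gm_mul_inv, mul_one]
  have h2 := congrFun (congrFun h1 p) p
  have h3 := congrFun (congrFun h1 (e 0)) (e 0)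
  rw [Matrix.smul_apply, hR, Matrix.diagonal_apply_eq, Matrix.one_apply_eq, hdp] at h2
  rw [Matrix.smul_apply, hR, Matrix.diagonal_apply_eq, Matrix.one_apply_eq, hde] at h3
  rw [smul_eq_mul, mul_one] at h2
  rw [← h2, one_smul] at h3
  exact hw1 h3.symm

/-- **The case `n = 5`.** -/
theorem main5 (hF : Fintype.card F = 2 ^ 2) {A : GU 5 F 2} (h : Cfg (f₁ A)) {S : Finset (Fin 5)}
    (hS : S.card = 3) (hb : Blk A S) : False := by
  classical
  obtain ⟨i, j, k, hij, hik, hjk, rfl⟩ := Finset.card_eq_three.1 hS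
  have hc : ({i, j, k} : Finset (Fin 5))ᶜ.card = 2 := by
    rw [Finset.card_compl, hS, Fintype.card_fin]
  obtain ⟨p, q, hpq, hpq'⟩ := Finset.card_eq_two.1 hc
  have hp : p ∉ ({i, j, k} : Finset (Fin 5)) := by
    rw [← Finset.mem_compl, hpq']
    simp
  have hq : q ∉ ({i, j, k} : Finset (Fin 5)) := by
    rw [← Finset.mem_compl, hpq']
    simp
  have hp' := hp
  have hq' := hq
  simp only [Finset.mem_insert, Finset.mem_singleton, not_or] at hp' hq'
  have hfr : Fr i j k p q := ⟨hij, hik, Ne.symm hp'.1, Ne.symm hq'.1, hjk, Ne.symm hp'.2.1, Ne.symm hq'.2.1,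
    Ne.symm hp'.2.2, Ne.symm hq'.2.2, hpq⟩
  refine claim2 hF h hfr fun x hx y hy => hb x (by simpa using hx) y ?_
  rcases hy with rfl | rfl
  · exact hp
  · exact hq

/-- **`PSU_n(2)`, `n` odd.** -/
theorem row_psu_two (hF : Fintype.card F = 2 ^ 2) (hn : 5 ≤ n) (hodd : Odd n) :
    Row (PSU n F 2) := by
  intro α h
  obtain ⟨A, rfl⟩ := linear hF (by omega) h
  obtain ⟨hn5, A', S, h', hS, hb⟩ := reduce hF hn hodd h
  subst hn5
  exact main5 hF h' hS hb

end Cfsg.Agent.H594.UTwo
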